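import Cfsg.Agent.H7.R3D
import Cfsg.Agent.H6.Chain

/-! Certificates for graphs on permutation tables: rows, counts, orbits, automorphism bounds. -/

set_option autoImplicit false

open MulAction Finset

namespace Cfsg.H7.R3

open H6

noncomputable def bit (M v : ℕ) : Bool :=
  Nat.beq (Nat.land (Nat.shiftRight M v) (nat_lit 1)) (nat_lit 1)

theorem bit_eq (M v : ℕ) : bit M v = M.testBit v := by
  unfold bit
  rw [land_one_testBit]
  cases M.testBit v <;> rfl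

noncomputable def cnt (f : ℕ → Bool) (n : ℕ) : ℕ :=
  @Nat.rec (fun _ => ℕ) (nat_lit 0)
    (fun i acc => Nat.add (@Bool.rec (fun _ => ℕ) (nat_lit 0) (nat_lit 1) (f i)) acc) n

theorem cnt_eq (f : ℕ → Bool) (n : ℕ) : cnt f n = ∑ i ∈ range n, if f i then 1 else 0 := by
  induction n with
  | zero => rfl
  | succ n ih =>
    rw [sum_range_succ, ← ih, add_comm (cnt f n)]
    show Nat.add (@Bool.rec (fun _ => ℕ) 0 1 (f n)) (cnt f n) = _
    cases f n <;> rfl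

variable {n : ℕ}

theorem card_eq_cnt (E : Finset (Fin n)) (f : ℕ → Bool) (h : ∀ v : Fin n, v ∈ E ↔ f v = true) :
    E.card = cnt f n := by
  rw [cnt_eq, ← Fin.sum_univ_eq_sum_range (fun i => if f i then 1 else 0), ← card_filter]
  congr 1
  ext v
  simp [h]

/-- `M` is the row of the vertex `u` -/
def Row (adj : Fin n → Fin n → Prop) (u M : ℕ) : Prop :=
  u < n ∧ ∀ u' v : Fin n, u'.1 = u → (adj u' v ↔ bit M v = true)

noncomputable def rowChk (img : ℕ → ℕ → ℕ) (n m D : ℕ) (w : List ℕ) (u M : ℕ) : Bool :=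
  inR m w && Nat.blt u n && Nat.beq (trF img w u) 0 &&
    allR (fun v => Nat.beq (Nat.land (Nat.shiftRight M v) (nat_lit 1))
      (Nat.land (Nat.shiftRight D (trF img w v)) (nat_lit 1))) 0 n

section act

variable {X : Type*} [Group X] {φ : X →* Equiv.Perm ℕ} {ev : ℕ → X} {img : ℕ → ℕ → ℕ} {m : ℕ}

/-- the action on the points below `n` -/
@[reducible] def actF (h : orb φ ⊤ 0 = Set.Ico 0 n) : MulAction X (Fin n) where
  smul g p := ⟨φ g p, (h ▸ orb_step (K := ⊤) (h ▸ ⟨Nat.zero_le _, p.2⟩ : p.1 ∈ orb φ ⊤ 0)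
    (g := g⁻¹) trivial : (φ g⁻¹)⁻¹ p.1 ∈ Set.Ico 0 n).2.trans_eq' (by simp)⟩
  one_smul p := Fin.ext (by show φ 1 p = p; simp)
  mul_smul g h p := Fin.ext (by show φ (g * h) p = φ g (φ h p); simp)

variable [MulAction X (Fin n)] (hφ : ∀ (g : X) (p : Fin n), (g • p).1 = φ g p)
include hφ

theorem row_sound (ha : IsAct φ ev img n m) {adj : Fin n → Fin n → Prop}
    (inv : ∀ (g : X) u v, adj (g • u) (g • v) ↔ adj u v) {D u M : ℕ} {w : List ℕ}
    (h0 : Row adj 0 D) (h : rowChk img n m D w u M = true) : Row adj u M := by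
  unfold rowChk at h
  simp only [Bool.and_eq_true, Nat.blt_eq, Nat.beq_eq] at h
  obtain ⟨⟨⟨h1, h2⟩, h3⟩, h4⟩ := h
  refine ⟨h2, fun u' v e => ?_⟩
  have t : ∀ x : Fin n, ((evL ev w)⁻¹ • x).1 = trF img w x := fun x => by
    rw [hφ, map_inv, (ha.trF h1 x.2).1]
  rw [← inv (evL ev w)⁻¹, h0.2 _ _ (by rw [t, e, h3]), t]
  unfold bit
  rw [Nat.eq_of_beq_eq_true (allR_spec h4 v (Nat.zero_le _) (by simp))]

theorem orbGe_le {o p x : Fin n} {M : ℕ} (h : OrbGe φ (⊤ ⊓ fixS φ [p.1, o.1]) x.1 M) :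
    M ≤ (orbit (stabilizer (stabilizer X o) p) x).ncard := by
  obtain ⟨S, h1, h2⟩ := h
  rw [← Set.ncard_image_of_injective _ Fin.val_injective]
  refine h1.trans ((Set.ncard_coe_finset S).ge.trans (Set.ncard_le_ncard (fun y hy => ?_)
    ((Set.toFinite _).image _)))
  obtain ⟨g, hg, rfl⟩ := h2 y hy
  have a := mem_fixS'.1 hg.2
  refine ⟨_, ⟨⟨⟨g⁻¹, Fin.ext ?_⟩, Fin.ext ?_⟩, rfl⟩, ?_⟩
  · rw [hφ, map_inv]; exact a _ (by simp)
  · exact (hφ g⁻¹ p).trans (by rw [map_inv]; exact a _ (by simp))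
  · exact (hφ g⁻¹ x).trans (by rw [map_inv])

theorem stab_eq_fixS (o : Fin n) : stabilizer X o = fixS φ [o.1] := by
  ext g
  rw [mem_stabilizer_iff, mem_fixS, Fin.ext_iff, hφ]
  simp

theorem mem_orbit_iff_orb (K : Subgroup X) (x v : Fin n) : v ∈ orbit K x ↔ v.1 ∈ orb φ K x.1 :=
  ⟨fun ⟨g, e⟩ => ⟨g⁻¹, inv_mem g.2, by rw [map_inv, inv_inv, ← hφ]; exact congrArg Fin.val e⟩,
    fun ⟨g, hg, e⟩ => ⟨⟨g⁻¹, inv_mem hg⟩, Fin.ext ((hφ g⁻¹ x).trans (by rwa [map_inv]))⟩⟩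

theorem ncard_Ico {K : Subgroup X} {x : Fin n} {lo hi : ℕ} (h : orb φ K x.1 = Set.Ico lo hi)
    (hn : hi ≤ n) : (orbit K x).ncard = hi - lo := by
  rw [← Set.ncard_image_of_injective _ Fin.val_injective, ← Nat.card_Ico, ← Set.ncard_coe_finset,
    coe_Ico, ← h]
  congr 1
  ext y
  refine ⟨fun ⟨v, a, e⟩ => e ▸ (mem_orbit_iff_orb hφ K x v).1 a, fun a => ?_⟩
  exact ⟨⟨y, (h ▸ a : y ∈ Set.Ico lo hi).2.trans_le hn⟩, (mem_orbit_iff_orb hφ K x _).2 a, rfl⟩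

theorem faithful {bs : List ℕ} (hb : ∀ b ∈ bs, b < n) (h : fixS φ bs = ⊥) :
    FaithfulSMul X (Fin n) := ⟨fun {g g'} e => by
  rw [← mul_inv_eq_one, ← Subgroup.mem_bot, ← h]
  intro b i
  exact (hφ _ ⟨b, hb b i⟩).symm.trans (by rw [mul_smul, e, smul_inv_smul])⟩

theorem pretrans (h : orb φ ⊤ 0 = Set.Ico 0 n) : IsPretransitive X (Fin n) := ⟨fun x y => by
  have a : ∀ z : Fin n, z.1 ∈ orb φ ⊤ 0 := fun z => h ▸ ⟨Nat.zero_le _, z.2⟩
  obtain ⟨g, e⟩ := (mem_orbit_iff_orb hφ ⊤ x y).2 (orb_trans (orb_symm (a x)) (a y))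
  exact ⟨g, e⟩⟩

end act

/-! ### Automorphisms -/

noncomputable def cls (F : ℕ) (e : ℕ × ℕ) (u : ℕ) : ℕ :=
  @Bool.rec (fun _ => ℕ) (@Bool.rec (fun _ => ℕ)
    (Nat.xor (Nat.xor F e.2) (Nat.pow (nat_lit 2) e.1)) e.2 (bit e.2 u))
    (Nat.pow (nat_lit 2) u) (Nat.beq u e.1)

noncomputable def cm (F : ℕ) (R : List (ℕ × ℕ)) (u : ℕ) : ℕ :=
  @List.rec _ (fun _ => ℕ) F (fun e _ acc => Nat.land (cls F e u) acc) R

noncomputable def mk (L : List ℕ) : ℕ :=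
  @List.rec _ (fun _ => ℕ) (nat_lit 0) (fun v _ acc => Nat.lor (Nat.pow (nat_lit 2) v) acc) L

theorem mem_of_mk {L : List ℕ} {v : ℕ} (h : (mk L).testBit v = true) : v ∈ L := by
  induction L with
  | nil => exact absurd h (by simp [mk])
  | cons x L ih =>
    have h' : (2 ^ x ||| mk L).testBit v = true := h
    rw [Nat.testBit_or, Bool.or_eq_true, Nat.testBit_two_pow, decide_eq_true_eq] at h'
    exact h'.elim (fun e => e ▸ List.mem_cons_self) fun e => List.mem_cons_of_mem _ (ih e)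

/-- automorphisms fixing the listed vertices -/
def FixA (adj : Fin n → Fin n → Prop) (R : List (ℕ × ℕ)) : Subgroup (Equiv.Perm (Fin n)) :=
  Aut adj ⊓ ⨅ (v : Fin n) (_ : ∃ e ∈ R, e.1 = v.1), stabilizer _ v

variable {adj : Fin n → Fin n → Prop}

theorem mem_FixA {R : List (ℕ × ℕ)} {σ : Equiv.Perm (Fin n)} : σ ∈ FixA adj R ↔
    σ ∈ Aut adj ∧ ∀ v : Fin n, (∃ e ∈ R, e.1 = v.1) → σ v = v := by
  simp only [FixA, Subgroup.mem_inf, Subgroup.mem_iInf, mem_stabilizer_iff, Equiv.Perm.smul_def]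

theorem cm_sound {R : List (ℕ × ℕ)} (hR : ∀ e ∈ R, Row adj e.1 e.2) {σ : Equiv.Perm (Fin n)}
    (h : σ ∈ FixA adj R) (u : Fin n) : (cm (2 ^ n - 1) R u).testBit (σ u) = true := by
  obtain ⟨h1, h2⟩ := mem_FixA.1 h
  clear h
  have f : (2 ^ n - 1).testBit (σ u) = true := by simp [Nat.testBit_two_pow_sub_one]
  induction R with
  | nil => exact f
  | cons e R ih =>
    show (cls _ e u &&& cm _ R u).testBit _ = true
    rw [Nat.testBit_and, ih (fun x i => hR x (List.mem_cons_of_mem _ i))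
      fun v ⟨x, i, q⟩ => h2 v ⟨x, List.mem_cons_of_mem _ i, q⟩, Bool.and_true]
    obtain ⟨r1, r2⟩ := hR e List.mem_cons_self
    have s := h2 ⟨e.1, r1⟩ ⟨e, List.mem_cons_self, rfl⟩
    have a : bit e.2 (σ u) = true ↔ bit e.2 u = true := by
      rw [← r2 ⟨e.1, r1⟩ _ rfl, ← r2 ⟨e.1, r1⟩ _ rfl, ← h1 _ u, s]
    unfold cls
    cases q : Nat.beq u e.1
    · have ne : e.1 ≠ σ u := fun i => Nat.ne_of_beq_eq_false q (congrArg Fin.val
        (σ.injective (Fin.ext i.symm |>.trans s.symm : σ u = σ ⟨e.1, r1⟩)))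
      cases q' : bit e.2 u
      · show ((2 ^ n - 1) ^^^ e.2 ^^^ 2 ^ e.1).testBit _ = true
        rw [q', bit_eq] at a
        simp [Nat.testBit_xor, f, Nat.testBit_two_pow, ne, Bool.eq_false_iff.2 fun i =>
          Bool.false_ne_true (a.1 i)]
      · exact bit_eq _ _ ▸ a.2 q'
    · show (2 ^ u.1).testBit _ = true
      have : u = ⟨e.1, r1⟩ := Fin.ext (Nat.eq_of_beq_eq_true q)
      rw [this, s, Nat.testBit_two_pow_self]

theorem fixA_step {R : List (ℕ × ℕ)} (hR : ∀ e ∈ R, Row adj e.1 e.2) {x M : ℕ} (hx : x < n)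
    {L : List ℕ} (h : cm (2 ^ n - 1) R x = mk L) :
    Nat.card (FixA adj R) ≤ L.length * Nat.card (FixA adj ((x, M) :: R)) := by
  have e : FixA adj ((x, M) :: R) = stabilizer _ (⟨x, hx⟩ : Fin n) ⊓ FixA adj R := by
    ext σ
    simp only [mem_FixA, Subgroup.mem_inf, mem_stabilizer_iff, Equiv.Perm.smul_def, List.mem_cons]
    refine ⟨fun a => ⟨a.2 _ ⟨_, Or.inl rfl, rfl⟩, a.1, fun v ⟨e, i, q⟩ => a.2 v ⟨e, Or.inr i, q⟩⟩,
      fun a => ⟨a.2.1, fun v ⟨e, i, q⟩ => i.elim (fun i => ?_) fun i => a.2.2 v ⟨e, i, q⟩⟩⟩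
    have : v = ⟨x, hx⟩ := Fin.ext (by rw [← q, i])
    rw [this, a.1]
  rw [e, ← Subgroup.index_mul_card ((stabilizer _ (⟨x, hx⟩ : Fin n)).subgroupOf (FixA adj R)),
    ← Nat.card_congr (Subgroup.subgroupOfEquivOfLe inf_le_right).toEquiv,
    Subgroup.inf_subgroupOf_right]
  refine Nat.mul_le_mul_right _ ((ncard_orbit _ _).ge.trans ?_)
  rw [← Set.ncard_image_of_injective _ Fin.val_injective]
  refine (Set.ncard_le_ncard (t := L.toFinset) ?_ (finite_toSet _)).trans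
    ((Set.ncard_coe_finset _).le.trans L.toFinset_card_le)
  rintro _ ⟨_, ⟨σ, rfl⟩, rfl⟩
  exact mem_coe.2 (List.mem_toFinset.2 (mem_of_mk (h ▸ cm_sound hR σ.2 ⟨x, hx⟩)))

noncomputable def chn (F n : ℕ) (C : List (ℕ × ℕ × List ℕ)) : List (ℕ × ℕ) → Bool :=
  @List.rec _ (fun _ => List (ℕ × ℕ) → Bool)
    (fun R => allR (fun u => Nat.beq (cm F R u) (Nat.pow (nat_lit 2) u)) 0 n)
    (fun c _ ih R => andB (Nat.beq (cm F R c.1) (mk c.2.2)) (ih ((c.1, c.2.1) :: R))) C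

theorem chn_sound (C : List (ℕ × ℕ × List ℕ)) : ∀ R : List (ℕ × ℕ), (∀ e ∈ R, Row adj e.1 e.2) →
    (∀ c ∈ C, Row adj c.1 c.2.1) → chn (2 ^ n - 1) n C R = true →
    Nat.card (FixA adj R) ≤ (C.map fun c => c.2.2.length).prod := by
  induction C with
  | nil =>
    intro R hR _ h
    refine (Subgroup.card_le_one_iff_eq_bot _).2 (eq_bot_iff.2 fun σ i => Equiv.ext fun u => ?_)
    have a := cm_sound hR i u
    have h' : allR (fun u => Nat.beq (cm (2 ^ n - 1) R u) (2 ^ u)) 0 n = true := h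
    rw [Nat.eq_of_beq_eq_true (allR_spec h' u (Nat.zero_le _) (by simp))] at a
    exact Fin.ext (of_decide_eq_true ((Nat.testBit_two_pow ..).symm.trans a)).symm
  | cons c C ih =>
    intro R hR hC h
    obtain ⟨h1, h2⟩ := andB_eq_true.1 (show andB _ (chn _ n C _) = true from h)
    have r := hC c List.mem_cons_self
    exact (fixA_step hR r.1 (Nat.eq_of_beq_eq_true h1)).trans (Nat.mul_le_mul_left _
      (ih _ (List.forall_mem_cons.2 ⟨r, hR⟩) (fun x i => hC x (List.mem_cons_of_mem _ i)) h2))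

theorem aut_le {C : List (ℕ × ℕ × List ℕ)} (hC : ∀ c ∈ C, Row adj c.1 c.2.1)
    (h : chn (2 ^ n - 1) n C [] = true) : Nat.card (Aut adj) ≤ (C.map fun c => c.2.2.length).prod := by
  have := chn_sound C [] (by simp) hC h
  rwa [show FixA adj [] = Aut adj by simp [FixA]] at this

end Cfsg.H7.R3
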