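import Cfsg.Agent.H7.R3A

/-! The rank 3 graph on 1782 points is determined by the action of the point stabiliser. -/

set_option autoImplicit false

open MulAction Finset

namespace Cfsg.H7.R3

set_option synthInstance.maxSize 1024 in
theorem arithB : ∀ d < 101, ∀ e < 316, (1 + d + e) ∣ 604800 → ¬ 5 ∣ (1 + d + e) →
    100 ∣ (1 + d + e) * d → 315 ∣ (1 + d + e) * e →
    ((1 + d + e) * (100 - d)) ^ 2 + (416 - (1 + d + e)) * ((1 + d + e) * d ^ 2) ≤
      (416 - (1 + d + e)) * ((1 + d + e) * (100 + 36 * d + 20 * e)) → 1 + d + e = 1 := by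
  decide +kernel

variable {H V : Type*} [Group H] [MulAction H V] [DecidableEq V]

/-- the facts used about the model -/
structure SM (H : Type*) [Group H] [MulAction H V] (adj : V → V → Prop) [DecidableRel adj]
    (o p q : V) (D S C1 C3 : Finset V) : Prop where
  card : Nat.card H = 251596800
  sym : ∀ u v, adj u v → adj v u
  irr : ∀ u, ¬ adj u u
  inv : ∀ (h : H) u v, adj (h • u) (h • v) ↔ adj u v
  fix : ∀ h : H, h • o = o
  nb : ∀ v, adj o v ↔ v ∈ D
  oS : o ∉ S
  dj : ∀ v ∈ D, v ∉ S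
  mD : ∀ v, v ∈ D ↔ v ∈ orbit H p
  mS : ∀ v, v ∈ S ↔ v ∈ orbit H q
  cD : D.card = 416
  cS : S.card = 1365
  a1 : IsO (stabilizer H p) (D.filter (adj p)) 100
  a2 : IsO (stabilizer H p) (D.filter fun v => ¬ adj p v ∧ v ≠ p) 315
  nu : ∀ t ∈ D, ∀ t' ∈ D, (D.filter fun v => adj t v ∧ adj t' v).card =
    if t = t' then 100 else if adj t t' then 36 else 20
  b1 : IsO (stabilizer H q) (D.filter (adj q)) 96
  b2 : IsO (stabilizer H q) (D.filter fun v => ¬ adj q v) 320
  c1 : IsO (stabilizer H q) C1 20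
  c2 : IsO (stabilizer H q) (S.filter (adj q)) 320
  c3 : IsO (stabilizer H q) C3 1024
  part : ∀ E ⊆ S, q ∉ E → E.card = (E ∩ C1).card + (E ∩ S.filter (adj q)).card + (E ∩ C3).card
  nu2 : ∀ v ∈ S, (∀ x ∈ D, adj q x → adj v x) → v = q

theorem index_stab {α : Type*} [MulAction H α] {x : α} {D : Finset α}
    (h : ∀ v, v ∈ D ↔ v ∈ orbit H x) : (stabilizer H x).index = D.card := by
  rw [index_stabilizer, ← Set.ncard_coe_finset]
  congr 1
  ext v
  exact (h v).symm

theorem inv_of_orb {α : Type*} [MulAction H α] {x : α} {D : Finset α}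
    (h : ∀ v, v ∈ D ↔ v ∈ orbit H x) (g : H) {v : α} (hv : v ∈ D) : g • v ∈ D :=
  (h _).2 (mem_orbit_of_mem_orbit g ((h v).1 hv))

theorem card_filter_smul {α : Type*} [MulAction H α] [DecidableEq α] (g : H) {T : Finset α}
    (hT : ∀ v ∈ T, g • v ∈ T ∧ g⁻¹ • v ∈ T) (P Q : α → Prop) [DecidablePred P] [DecidablePred Q]
    (h : ∀ v, P (g • v) ↔ Q v) : (T.filter P).card = (T.filter Q).card :=
  (card_bij (fun v _ => g • v) (fun v hv => mem_filter.2 ⟨(hT v (mem_filter.1 hv).1).1,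
    (h v).2 (mem_filter.1 hv).2⟩) (fun _ _ _ _ e => MulAction.injective g e) fun v hv =>
    ⟨g⁻¹ • v, mem_filter.2 ⟨(hT v (mem_filter.1 hv).1).2, (h _).1 (by
      rw [smul_inv_smul]; exact (mem_filter.1 hv).2)⟩, smul_inv_smul g v⟩).symm

/-- the orbit of `x` under `K`, cut out of `D` -/
theorem exists_orbF {α : Type*} [MulAction H α] (K : Subgroup H) {x : α} {D : Finset α}
    (h : ∀ v, v ∈ D ↔ v ∈ orbit H x) : ∃ T ⊆ D, x ∈ T ∧ Inv K T ∧
      T.card = (stabilizer H x).relIndex K ∧ ∀ t ∈ T, ∃ k ∈ K, k • x = t := by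
  classical
  refine ⟨D.filter (· ∈ orbit K x), filter_subset _ _, mem_filter.2 ⟨(h x).2 (mem_orbit_self x),
    mem_orbit_self x⟩, fun g hg v hv => mem_filter.2 ⟨inv_of_orb h g (mem_filter.1 hv).1,
    mem_orbit_of_mem_orbit (⟨g, hg⟩ : K) (mem_filter.1 hv).2⟩, ?_, fun t ht => ?_⟩
  · rw [← ncard_orbit, ← Set.ncard_coe_finset]
    congr 1
    ext v
    simp only [coe_filter, Set.mem_ofPred_eq]
    exact ⟨fun a => a.2, fun ⟨k, e⟩ => ⟨(h v).2 ⟨k, e⟩, k, e⟩⟩
  · obtain ⟨k, e⟩ := (mem_filter.1 ht).2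
    exact ⟨k, k.2, e⟩

variable {adj : V → V → Prop} [DecidableRel adj] {o p q : V} {D S C1 C3 : Finset V}

namespace SM

variable (m : SM H adj o p q D S C1 C3)
include m

theorem pD : p ∈ D := (m.mD p).2 (mem_orbit_self p)

theorem qS : q ∈ S := (m.mS q).2 (mem_orbit_self q)

theorem ip : (stabilizer H p).index = 416 := (index_stab m.mD).trans m.cD

theorem iq : (stabilizer H q).index = 1365 := (index_stab m.mS).trans m.cS

theorem partA (E : Finset V) (hE : E ⊆ D) (hp : p ∉ E) : E.card = (E ∩ D.filter (adj p)).card +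
    (E ∩ D.filter fun v => ¬ adj p v ∧ v ≠ p).card := by
  rw [← card_filter_add_card_filter_not (s := E) (adj p)]
  congr 2 <;> ext v <;> simp only [mem_filter, mem_inter]
  · exact ⟨fun a => ⟨a.1, hE a.1, a.2⟩, fun a => ⟨a.1, a.2.2⟩⟩
  · exact ⟨fun a => ⟨a.1, hE a.1, a.2, fun e => hp (e ▸ a.1)⟩, fun a => ⟨a.1, a.2.2.1⟩⟩

omit m in
theorem partB (E : Finset V) (hE : E ⊆ D) : E.card = (E ∩ D.filter (adj q)).card +
    (E ∩ D.filter fun v => ¬ adj q v).card := by
  rw [← card_filter_add_card_filter_not (s := E) (adj q)]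
  congr 2 <;> ext v <;> simp only [mem_filter, mem_inter] <;>
    exact ⟨fun a => ⟨a.1, hE a.1, a.2⟩, fun a => ⟨a.1, a.2.2⟩⟩

/-- subgroups of index 416 -/
theorem stepB (K : Subgroup H) (hK : K.index = 416) (h5 : ¬ 5 ∣ (stabilizer H p).relIndex K) :
    K = stabilizer H p := by
  obtain ⟨T, hT, pT, iT, cT, tT⟩ := exists_orbF K m.mD
  have i0 : (stabilizer H p).index ≠ 0 := by rw [m.ip]; norm_num
  have r := relIndex_symm (hK.trans m.ip.symm) i0
  have d1 := m.a1.dvd inf_le_right (iT.mono (inf_le_left : K ⊓ _ ≤ K))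
  have d2 := m.a2.dvd inf_le_right (iT.mono (inf_le_left : K ⊓ _ ≤ K))
  have l1 := m.a1.le T
  have l2 := m.a2.le T
  have e1 : T ∩ D.filter (adj p) = T.filter (adj p) := by
    ext v; simp only [mem_filter, mem_inter]; exact ⟨fun a => ⟨a.1, a.2.2⟩, fun a => ⟨a.1, hT a.1, a.2⟩⟩
  have e2 : (T ∩ D.filter fun v => ¬ adj p v ∧ v ≠ p) = T.filter fun v => ¬ adj p v ∧ v ≠ p := by
    ext v; simp only [mem_filter, mem_inter]; exact ⟨fun a => ⟨a.1, a.2.2⟩, fun a => ⟨a.1, hT a.1, a.2⟩⟩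
  rw [e1] at d1 l1
  rw [e2] at d2 l2
  have hd : ∀ t ∈ T, (T.filter (adj t)).card = (T.filter (adj p)).card := fun t ht => by
    obtain ⟨k, hk, rfl⟩ := tT t ht
    exact card_filter_smul k (fun v hv => ⟨iT k hk v hv, iT _ (inv_mem hk) v hv⟩) _ _ (m.inv k p)
  have s : ∀ t ∈ T, T.card = 1 + (T.filter (adj t)).card +
      (T.filter fun v => ¬ adj t v ∧ v ≠ t).card := fun t ht => by
    rw [← card_filter_add_card_filter_not (s := T) (adj t), ← card_filter_add_card_filter_not
      (s := T.filter fun v => ¬ adj t v) (· = t), filter_filter, filter_filter,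
      show (T.filter fun v => ¬ adj t v ∧ v = t) = {t} from eq_singleton_iff_unique_mem.2
        ⟨mem_filter.2 ⟨ht, m.irr t, rfl⟩, fun v hv => (mem_filter.1 hv).2.2⟩, card_singleton,
      ← add_assoc, add_comm _ 1]
  have v := variance adj D T hT m.sym 100 _ (100 + 36 * (T.filter (adj p)).card +
      20 * (T.filter fun v => ¬ adj p v ∧ v ≠ p).card)
    (fun t ht => by simpa using m.nu t (hT ht) t (hT ht)) hd fun t ht => by
      rw [sum_congr rfl fun t' h' => m.nu t (hT ht) t' (hT h'), sum_ite, sum_ite, filter_filter,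
        filter_filter, filter_eq, if_pos ht]
      have a := s t ht
      have b := s p pT
      rw [show (T.filter fun v => ¬ t = v ∧ adj t v) = T.filter (adj t) from filter_congr fun v _ =>
        ⟨fun a => a.2, fun a => ⟨fun e => m.irr t (e ▸ a), a⟩⟩,
        show (T.filter fun v => ¬ t = v ∧ ¬ adj t v) = T.filter fun v => ¬ adj t v ∧ v ≠ t from
        filter_congr fun v _ => ⟨fun a => ⟨a.2, Ne.symm a.1⟩, fun a => ⟨Ne.symm a.2, a.1⟩⟩]
      have c := hd t ht
      simp only [sum_const, smul_eq_mul, card_singleton]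
      omega
  have cK := K.index_mul_card
  have dK : (stabilizer H p).relIndex K ∣ Nat.card K := Subgroup.index_dvd_card _
  rw [hK, m.card] at cK
  rw [show Nat.card K = 604800 by omega] at dK
  rw [r] at d1 d2
  rw [← cT, s p pT] at d1 d2 dK h5
  rw [m.cD, s p pT] at v
  have := arithB _ (by omega) _ (by omega) dK h5 d1 d2 v
  rw [← s p pT, cT] at this
  exact eq_of_le_index (Subgroup.relIndex_eq_one.1 this) (hK.trans m.ip.symm) i0

/-- subgroups of index 1365 with an invariant set of 96 points -/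
theorem stepA (K : Subgroup H) (hK : K.index = 1365) (h2 : ¬ 2 ∣ (stabilizer H q).relIndex K)
    (M : Finset V) (hM : M ⊆ D) (cM : M.card = 96) (iM : Inv K M) :
    K = stabilizer H q ∧ M = D.filter (adj q) := by
  obtain ⟨T, hT, pT, iT, cT, -⟩ := exists_orbF K m.mS
  have i0 : (stabilizer H q).index ≠ 0 := by rw [m.iq]; norm_num
  have r := relIndex_symm (hK.trans m.iq.symm) i0
  have iT' : Inv (K ⊓ stabilizer H q) (T.erase q) := fun g hg v hv => mem_erase.2
    ⟨fun e => (mem_erase.1 hv).1 (MulAction.injective g (e.trans hg.2.symm)),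
      iT g hg.1 v (mem_erase.1 hv).2⟩
  have d1 := m.c1.dvd inf_le_right iT'
  have d2 := m.c2.dvd inf_le_right iT'
  have d3 := m.c3.dvd inf_le_right iT'
  have l1 := m.c1.le (T.erase q)
  have s := m.part _ ((erase_subset q T).trans hT) (notMem_erase q T)
  have d4 := m.b1.dvd inf_le_right (iM.mono (inf_le_left : K ⊓ _ ≤ K))
  have d5 := m.b2.dvd inf_le_right (iM.mono (inf_le_left : K ⊓ _ ≤ K))
  have s' := partB (adj := adj) (q := q) M hM
  have cK := K.index_mul_card
  have dK : (stabilizer H q).relIndex K ∣ Nat.card K := Subgroup.index_dvd_card _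
  rw [hK, m.card] at cK
  rw [show Nat.card K = 45 * 2 ^ 12 by omega] at dK
  have d45 := (Nat.Coprime.pow_right 12 ((Nat.Prime.coprime_iff_not_dvd Nat.prime_two).2
    h2).symm).dvd_of_dvd_mul_right dK
  rw [card_erase_of_mem pT, cT] at s
  rw [r] at d1 d2 d3 d4 d5
  have e : (M ∩ D.filter (adj q)).card = 96 := by
    have := Nat.le_of_dvd (by norm_num) d45
    generalize (stabilizer H q).relIndex K = t at *
    interval_cases t <;> omega
  have e' : M = D.filter (adj q) :=
    (eq_of_subset_of_card_le (m.b1.sub e) (by rw [cM, m.b1.card])).symm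
  refine ⟨eq_of_le_index (fun k hk => m.nu2 _ (inv_of_orb m.mS k m.qS) fun x hx a => ?_)
    (hK.trans m.iq.symm) i0, e'⟩
  have := iM _ (inv_mem hk) x (e' ▸ mem_filter.2 ⟨hx, a⟩)
  rw [e'] at this
  simpa using (m.inv k _ _).2 (mem_filter.1 this).2

end SM

end Cfsg.H7.R3
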