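import Cfsg.Agent.H7.R3B

/-! Transport of a rank 3 graph to the model. -/

set_option autoImplicit false

open MulAction Finset

namespace Cfsg.H7.R3

variable {H Ω V : Type*} [Group H] [MulAction H Ω] [MulAction H V] [DecidableEq V] [DecidableEq Ω]

/-- a graph seen from the stabiliser `H` of the vertex `a` -/
structure OM (H : Type*) [Group H] [MulAction H Ω] (r : Ω → Ω → Prop) [DecidableRel r]
    (a b c : Ω) (D S : Finset Ω) (k l : ℕ) : Prop where
  sym : ∀ u v, r u v → r v u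
  irr : ∀ u, ¬ r u u
  inv : ∀ (h : H) u v, r (h • u) (h • v) ↔ r u v
  fix : ∀ h : H, h • a = a
  nb : ∀ v, r a v ↔ v ∈ D
  oS : a ∉ S
  dj : ∀ v ∈ D, v ∉ S
  mD : ∀ v, v ∈ D ↔ v ∈ orbit H b
  mS : ∀ v, v ∈ S ↔ v ∈ orbit H c
  cD : D.card = k
  cS : S.card = l
  cov : ∀ v, v = a ∨ v ∈ D ∨ v ∈ S
  rD : ∀ u ∈ D, 1 + (D.filter (r u)).card + (S.filter (r u)).card = k
  rS : ∀ u ∈ S, (D.filter (r u)).card + (S.filter (r u)).card = k
  lam : ∀ u ∈ D, (D.filter (r u)).card + 1 ≠ k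

/-- an equivariant injection of the orbit `D'` onto the orbit `D` -/
structure Eqv (H : Type*) [Group H] [MulAction H Ω] [MulAction H V] (f : Ω → V) (x : Ω) (y : V)
    (D' : Finset Ω) (D : Finset V) : Prop where
  eq : ∀ h : H, f (h • x) = h • y
  inj : Set.InjOn f (orbit H x)
  m' : ∀ v, v ∈ D' ↔ v ∈ orbit H x
  m : ∀ v, v ∈ D ↔ v ∈ orbit H y

section eqv

variable {f : Ω → V} {x : Ω} {y : V} {D' : Finset Ω} {D : Finset V}

omit [DecidableEq V] [DecidableEq Ω] in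
theorem Eqv.base (e : Eqv H f x y D' D) : f x = y := by simpa using e.eq 1

omit [DecidableEq V] [DecidableEq Ω] in
theorem Eqv.smul (e : Eqv H f x y D' D) (h : H) {v : Ω} (hv : v ∈ D') : f (h • v) = h • f v := by
  obtain ⟨g, rfl⟩ := (e.m' v).1 hv
  simp only [smul_smul, e.eq]

omit [DecidableEq V] [DecidableEq Ω] in
theorem Eqv.mem (e : Eqv H f x y D' D) {v : Ω} (hv : v ∈ D') : f v ∈ D := by
  obtain ⟨g, rfl⟩ := (e.m' v).1 hv
  exact (e.m _).2 ⟨g, (e.eq g).symm⟩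

omit [DecidableEq V] [DecidableEq Ω] in
theorem Eqv.inj' (e : Eqv H f x y D' D) {u v : Ω} (hu : u ∈ D') (hv : v ∈ D') (h : f u = f v) :
    u = v := e.inj ((e.m' u).1 hu) ((e.m' v).1 hv) h

omit [DecidableEq Ω] in
theorem Eqv.img (e : Eqv H f x y D' D) (K : Subgroup H) (P : Ω → Prop) [DecidablePred P]
    (hP : ∀ g ∈ K, ∀ v, P v → P (g • v)) : ∃ E ⊆ D, E.card = (D'.filter P).card ∧ Inv K E ∧
      (∀ v ∈ D', f v ∈ E ↔ P v) := by
  refine ⟨(D'.filter P).image f, fun w hw => ?_, card_image_of_injOn fun u hu v hv =>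
    e.inj' (mem_filter.1 hu).1 (mem_filter.1 hv).1, fun g hg w hw => ?_, fun v hv => ⟨fun a => ?_,
    fun a => mem_image_of_mem f (mem_filter.2 ⟨hv, a⟩)⟩⟩
  · obtain ⟨v, hv, rfl⟩ := mem_image.1 hw
    exact e.mem (mem_filter.1 hv).1
  · obtain ⟨v, hv, rfl⟩ := mem_image.1 hw
    exact mem_image.2 ⟨g • v, mem_filter.2 ⟨inv_of_orb e.m' g (mem_filter.1 hv).1,
      hP g hg v (mem_filter.1 hv).2⟩, e.smul g (mem_filter.1 hv).1⟩
  · obtain ⟨u, hu, q⟩ := mem_image.1 a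
    exact e.inj' (mem_filter.1 hu).1 hv q ▸ (mem_filter.1 hu).2

end eqv

variable {r : Ω → Ω → Prop} [DecidableRel r] {a b c : Ω} {D' S' : Finset Ω} {k l : ℕ}

omit [DecidableEq Ω] in
theorem OM.move (w : OM H r a b c D' S' k l) (g h : H) : OM H r a (g • b) (h • c) D' S' k l :=
  { w with mD := by simpa only [orbit_smul] using w.mD, mS := by simpa only [orbit_smul] using w.mS }

omit [DecidableEq Ω] in
theorem OM.stab (w : OM H r a b c D' S' k l) (u : Ω) : ∀ g ∈ stabilizer H u, ∀ v, r u v →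
    r u (g • v) := fun g hg v h => by rwa [← w.inv g, mem_stabilizer_iff.1 hg] at h

theorem OM.count (w : OM H r a b c D' S' k l) :
    k * (S'.filter (r b)).card = l * (D'.filter (r c)).card := by
  rw [← w.cD, ← w.cS]
  refine dbl r D' S' w.sym _ _ (fun u hu => ?_) fun u hu => ?_
  · obtain ⟨g, rfl⟩ := (w.mD u).1 hu
    exact card_filter_smul g (fun v hv => ⟨inv_of_orb w.mS _ hv, inv_of_orb w.mS _ hv⟩) _ _
      (w.inv g b)
  · obtain ⟨g, rfl⟩ := (w.mS u).1 hu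
    exact card_filter_smul g (fun v hv => ⟨inv_of_orb w.mD _ hv, inv_of_orb w.mD _ hv⟩) _ _
      (w.inv g c)

omit [DecidableEq Ω] [DecidableEq V] in
/-- an element of the orbit whose stabiliser has an orbit of length prime to `n` at `y` -/
theorem exists_move (n : ℕ) (x : Ω) {y : V} {D : Finset V} (m : ∀ v, v ∈ D ↔ v ∈ orbit H y)
    (h : ¬ n ∣ D.card) : ∃ g : H, ¬ n ∣ (stabilizer H y).relIndex (stabilizer H (g • x)) := by
  obtain ⟨v, hv, e⟩ := exists_orb n (stabilizer H x) D (fun g _ _ => inv_of_orb m g) h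
  obtain ⟨g, rfl⟩ := (m v).1 hv
  exact ⟨g⁻¹, by rwa [← relIndex_smul g, smul_inv_smul]⟩

variable {adj : V → V → Prop} [DecidableRel adj] {o p q : V} {D S : Finset V}

/-- gluing the two equivariant maps -/
theorem OM.glue [Fintype Ω] [Fintype V] (hc : Fintype.card Ω = Fintype.card V)
    (w : OM H r a b c D' S' k l) (sym : ∀ u v, adj u v → adj v u)
    (inv : ∀ (h : H) u v, adj (h • u) (h • v) ↔ adj u v) (fix : ∀ h : H, h • o = o)
    (nb : ∀ v, adj o v ↔ v ∈ D) (oD : o ∉ D) (oS : o ∉ S) (dj : ∀ v ∈ D, v ∉ S) {f g : Ω → V}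
    (ef : Eqv H f b p D' D) (eg : Eqv H g c q S' S) (h1 : ∀ v ∈ D', r b v ↔ adj p (f v))
    (h2 : ∀ v ∈ D', r c v ↔ adj q (f v)) (h3 : ∀ v ∈ S', r c v ↔ adj q (g v)) :
    ∃ e : Ω ≃ V, ∀ u v, r u v ↔ adj (e u) (e v) := by
  let F : Ω → V := fun v => if v ∈ D' then f v else if v ∈ S' then g v else o
  have aD : a ∉ D' := fun h => w.irr a ((w.nb a).2 h)
  have Fa : F a = o := by simp [F, aD, w.oS]
  have FD : ∀ v ∈ D', F v = f v := fun v h => by simp [F, h]
  have FS : ∀ v ∈ S', F v = g v := fun v h => by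
    simp [F, h, show v ∉ D' from fun h' => w.dj v h' h]
  have eq : ∀ (h : H) v, F (h • v) = h • F v := fun h v => by
    rcases w.cov v with rfl | i | i
    · rw [w.fix, Fa, fix]
    · rw [FD _ (inv_of_orb w.mD h i), FD v i, ef.smul h i]
    · rw [FS _ (inv_of_orb w.mS h i), FS v i, eg.smul h i]
  have inj : Function.Injective F := fun u v e => by
    rcases w.cov u with rfl | i | i <;> rcases w.cov v with rfl | j | j
    · rfl
    · rw [Fa, FD v j] at e; exact absurd (e ▸ ef.mem j) oD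
    · rw [Fa, FS v j] at e; exact absurd (e ▸ eg.mem j) oS
    · rw [Fa, FD u i] at e; exact absurd (e ▸ ef.mem i) oD
    · rw [FD u i, FD v j] at e; exact ef.inj' i j e
    · rw [FD u i, FS v j] at e; exact absurd (e ▸ eg.mem j) (dj _ (ef.mem i))
    · rw [Fa, FS u i] at e; exact absurd (e ▸ eg.mem i) oS
    · rw [FS u i, FD v j] at e; exact absurd (e ▸ eg.mem i) (dj _ (ef.mem j))
    · rw [FS u i, FS v j] at e; exact eg.inj' i j e
  have sy : ∀ u v, (r u v ↔ adj (F u) (F v)) → (r v u ↔ adj (F v) (F u)) := fun u v h =>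
    ⟨fun x => sym _ _ (h.1 (w.sym _ _ x)), fun x => w.sym _ _ (h.2 (sym _ _ x))⟩
  have mv : ∀ (h : H) u, (∀ v, r u v ↔ adj (F u) (F v)) → ∀ v, r (h • u) v ↔ adj (F (h • u)) (F v) :=
    fun h u i v => by
      rw [← smul_inv_smul h v, w.inv, eq, eq h, inv, i]
  have qa : ∀ v, r a v ↔ adj (F a) (F v) := fun v => by
    rw [Fa, nb, w.nb]
    rcases w.cov v with rfl | i | i
    · rw [Fa]; exact iff_of_false aD oD
    · rw [FD v i]; exact iff_of_true i (ef.mem i)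
    · rw [FS v i]; exact iff_of_false (fun j => w.dj v j i) fun j => dj _ j (eg.mem i)
  have cS := (w.mS c).2 (mem_orbit_self c)
  have bD := (w.mD b).2 (mem_orbit_self b)
  have qc : ∀ v, r c v ↔ adj (F c) (F v) := fun v => by
    rcases w.cov v with rfl | i | i
    · exact sy _ _ (qa c)
    · rw [FS c cS, FD v i, eg.base, h2 v i]
    · rw [FS c cS, FS v i, eg.base, h3 v i]
  have qS : ∀ u ∈ S', ∀ v, r u v ↔ adj (F u) (F v) := fun u i => by
    obtain ⟨h, rfl⟩ := (w.mS u).1 i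
    exact mv h c qc
  have qb : ∀ v, r b v ↔ adj (F b) (F v) := fun v => by
    rcases w.cov v with rfl | i | i
    · exact sy _ _ (qa b)
    · rw [FD b bD, FD v i, ef.base, h1 v i]
    · exact sy _ _ (qS v i b)
  refine ⟨Equiv.ofBijective F ((Fintype.bijective_iff_injective_and_card F).2 ⟨inj, hc⟩),
    fun u => ?_⟩
  rcases w.cov u with rfl | i | i
  · exact qa
  · obtain ⟨h, rfl⟩ := (w.mD u).1 i
    exact mv h b qb
  · exact qS u i

theorem arC {e x y u v : ℕ} (s : e = x + y) (d1 : 100 ∣ x) (d2 : 315 ∣ y) (l1 : x ≤ 100)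
    (l2 : y ≤ 315) (n1 : 416 * u = 1365 * v) (n2 : 1 + e + u = 416) (n4 : e + 1 ≠ 416) :
    x = 100 ∧ e = 100 ∧ v = 96 := by omega

theorem arD {n x y z : ℕ} (s : n = x + y + z) (d1 : 20 ∣ x) (d2 : 320 ∣ y) (d3 : 1024 ∣ z)
    (l1 : x ≤ 20) (n1 : 96 + n = 416) : y = 320 ∧ n = 320 := by omega

theorem SM.graph [Fintype Ω] [Fintype V] (hc : Fintype.card Ω = Fintype.card V) {C1 C3 : Finset V}
    (m : SM H adj o p q D S C1 C3) (w : OM H r a b c D' S' 416 1365) :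
    ∃ e : Ω ≃ V, ∀ u v, r u v ↔ adj (e u) (e v) := by
  obtain ⟨g, hg⟩ := exists_move 5 b m.mD (by rw [m.cD]; norm_num)
  obtain ⟨h, hh⟩ := exists_move 2 c m.mS (by rw [m.cS]; norm_num)
  replace w := w.move g h
  generalize g • b = b at w hg
  generalize h • c = c at w hh
  have bD := (w.mD b).2 (mem_orbit_self b)
  have cS := (w.mS c).2 (mem_orbit_self c)
  have sb := m.stepB _ ((index_stab w.mD).trans w.cD) hg
  obtain ⟨f, f1, f2⟩ := exists_eqv sb
  have ef : Eqv H f b p D' D := ⟨f1, f2, w.mD, m.mD⟩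
  obtain ⟨E, e1, e2, e3, e4⟩ := ef.img _ _ (w.stab b)
  have pE : p ∉ E := fun i => w.irr b ((e4 b bD).1 (ef.base ▸ i))
  rw [sb] at e3
  have s := m.partA E e1 pE
  have d1 := m.a1.dvd le_rfl e3
  have d2 := m.a2.dvd le_rfl e3
  have n3 := w.rS c cS
  rw [Subgroup.relIndex_self, one_mul] at d1 d2
  obtain ⟨x1, x2, x3⟩ := arC s d1 d2 (m.a1.le E) (m.a2.le E) w.count (e2 ▸ w.rD b bD)
    (e2 ▸ w.lam b bD)
  have eE : E = D.filter (adj p) := (eq_of_subset_of_card_le (m.a1.sub x1)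
    (by rw [m.a1.card, x2])).symm
  obtain ⟨M, m1, m2, m3, m4⟩ := ef.img _ _ (w.stab c)
  obtain ⟨sc, eM⟩ := m.stepA _ ((index_stab w.mS).trans w.cS) hh M m1 (m2.trans x3) m3
  obtain ⟨f', g1, g2⟩ := exists_eqv sc
  have eg : Eqv H f' c q S' S := ⟨g1, g2, w.mS, m.mS⟩
  obtain ⟨N, k1, k2, k3, k4⟩ := eg.img _ _ (w.stab c)
  rw [sc] at k3
  have s' := m.part N k1 fun i => w.irr c ((k4 c cS).1 (eg.base ▸ i))
  have d3 := m.c1.dvd le_rfl k3
  have d4 := m.c2.dvd le_rfl k3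
  have d5 := m.c3.dvd le_rfl k3
  rw [Subgroup.relIndex_self, one_mul] at d3 d4 d5
  obtain ⟨y1, y2⟩ := arD s' d3 d4 d5 (m.c1.le N) (by rw [k2, ← x3, n3])
  have eN : N = S.filter (adj q) := (eq_of_subset_of_card_le (m.c2.sub y1)
    (by rw [m.c2.card, y2])).symm
  refine w.glue hc m.sym m.inv m.fix m.nb (fun i => m.irr o ((m.nb o).2 i)) m.oS m.dj ef eg
    (fun v i => ?_) (fun v i => ?_) fun v i => ?_
  · rw [← e4 v i, eE, mem_filter, and_iff_right (ef.mem i)]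
  · rw [← m4 v i, eM, mem_filter, and_iff_right (ef.mem i)]
  · rw [← k4 v i, eN, mem_filter, and_iff_right (eg.mem i)]

end Cfsg.H7.R3
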