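import Cfsg.Agent.H7.R3C

/-! The graph of a rank 3 permutation group. -/

set_option autoImplicit false

open MulAction Finset

namespace Cfsg.H7.R3

variable {Ω : Type*} [Fintype Ω] [DecidableEq Ω]

omit [Fintype Ω] [DecidableEq Ω] in
theorem OM.comp {H H' : Type*} [Group H] [Group H'] [MulAction H Ω] {r : Ω → Ω → Prop}
    [DecidableRel r] {a b c : Ω} {D S : Finset Ω} {k l : ℕ} (w : OM H r a b c D S k l)
    (θ : H' ≃* H) : letI := MulAction.compHom Ω θ.toMonoidHom; OM H' r a b c D S k l := by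
  letI := MulAction.compHom Ω θ.toMonoidHom
  have o : ∀ x v : Ω, v ∈ orbit H x ↔ v ∈ orbit H' x := fun x v =>
    ⟨fun ⟨g, e⟩ => ⟨θ.symm g, (congrArg (· • x) (θ.apply_symm_apply g)).trans e⟩,
      fun ⟨g, e⟩ => ⟨θ g, e⟩⟩
  exact { w with
    inv := fun h => w.inv (θ h), fix := fun h => w.fix (θ h),
    mD := fun v => (w.mD v).trans (o b v), mS := fun v => (w.mS v).trans (o c v) }

theorem exists_OM {G : Type*} [Group G] [MulAction G Ω] [IsPretransitive G Ω] (a b c : Ω) (k l : ℕ)
    (hb : (orbit (stabilizer G a) b).ncard = k) (hc : (orbit (stabilizer G a) c).ncard = l)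
    (hΩ : Fintype.card Ω = 1 + k + l) (k1 : k ≠ 1) (l1 : l ≠ 1) (kl : k ≠ l)
    (hd : ¬ k + 1 ∣ Fintype.card Ω) :
    ∃ (r : Ω → Ω → Prop) (_ : DecidableRel r) (D S : Finset Ω),
      (∀ (g : G) u v, r (g • u) (g • v) ↔ r u v) ∧ OM (stabilizer G a) r a b c D S k l := by
  classical
  let r : Ω → Ω → Prop := fun u v => ∃ g : G, g • a = u ∧ g • b = v
  have i1 : ∀ (g : G) u v, r u v → r (g • u) (g • v) := fun g u v ⟨h, e1, e2⟩ =>
    ⟨g * h, by rw [mul_smul, e1], by rw [mul_smul, e2]⟩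
  have inv : ∀ (g : G) u v, r (g • u) (g • v) ↔ r u v := fun g u v =>
    ⟨fun h => by simpa using i1 g⁻¹ _ _ h, i1 g u v⟩
  let F : Ω → Finset Ω := fun x => univ.filter (· ∈ orbit (stabilizer G a) x)
  have mF : ∀ x v, v ∈ F x ↔ v ∈ orbit (stabilizer G a) x := fun x v => by simp [F]
  have cF : ∀ x, (F x).card = (orbit (stabilizer G a) x).ncard := fun x => by
    rw [← Set.ncard_coe_finset]; congr 1; ext v; exact mF x v
  have eF : ∀ x v, v ∈ F x → (orbit (stabilizer G a) v).ncard = (F x).card := fun x v h => by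
    rw [cF, orbit_eq_iff.2 ((mF x v).1 h)]
  have oa : (orbit (stabilizer G a) a).ncard = 1 := by
    rw [ncard_orbit, Subgroup.relIndex_self]
  have aD : a ∉ F b := fun h => k1 (by rw [← hb, ← cF, ← eF b a h, oa])
  have aS : a ∉ F c := fun h => l1 (by rw [← hc, ← cF, ← eF c a h, oa])
  have dj : ∀ v ∈ F b, v ∉ F c := fun v h h' => kl (by rw [← hb, ← hc, ← cF, ← cF, ← eF b v h,
    eF c v h'])
  have nb : ∀ v, r a v ↔ v ∈ F b := fun v => Iff.trans
    ⟨fun ⟨g, e1, e2⟩ => ⟨⟨g, e1⟩, e2⟩, fun ⟨g, e⟩ => ⟨g, g.2, e⟩⟩ (mF b v).symm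
  have cov : ∀ v, v = a ∨ v ∈ F b ∨ v ∈ F c := fun v => by
    have : insert a (F b ∪ F c) = univ := eq_univ_of_card _ (by
      rw [card_insert_of_notMem (by simp only [mem_union]; tauto), card_union_of_disjoint
        (disjoint_left.2 dj), cF, cF, hb, hc, hΩ]; omega)
    simpa only [mem_insert, mem_union] using (this ▸ mem_univ v : v ∈ insert a (F b ∪ F c))
  have irr : ∀ u, ¬ r u u := fun u ⟨g, e1, e2⟩ => aD ((mF b a).2
    ⟨1, (one_smul _ b).trans (MulAction.injective g (e2.trans e1.symm))⟩)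
  have ix : ∀ x : Ω, (stabilizer G x).index = Fintype.card Ω := fun x => by
    rw [index_stabilizer_of_transitive, Nat.card_eq_fintype_card]
  have ba : r b a := by
    obtain ⟨g, e⟩ := exists_smul_eq G b a
    have t := relIndex_smul g a b
    rw [e, ← Subgroup.inf_relIndex_right, relIndex_symm ((ix a).trans (ix _).symm)
      (by rw [ix]; omega), ← ncard_orbit, ← ncard_orbit, hb] at t
    rcases cov (g • a) with i | i | i
    · exact absurd (by rw [← t, i, oa]) k1
    · obtain ⟨h, q⟩ := (mF _ _).1 i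
      refine (inv h _ _).1 ⟨g, q.symm, e.trans h.2.symm⟩
    · exact absurd (by rw [← t, eF c _ i, cF, hc]) kl
  have sym : ∀ u v, r u v → r v u := fun u v ⟨g, e1, e2⟩ => e1 ▸ e2 ▸ i1 g _ _ ba
  have reg : ∀ u, (univ.filter (r u)).card = k := fun u => by
    obtain ⟨g, rfl⟩ := exists_smul_eq G a u
    rw [card_filter_smul g (fun v _ => ⟨mem_univ _, mem_univ _⟩) _ _ (inv g a), ← hb, ← cF]
    congr 1; ext v; simp only [mem_filter, mem_univ, true_and, nb]
  have spl : ∀ u, (if r u a then 1 else 0) + ((F b).filter (r u)).card +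
      ((F c).filter (r u)).card = k := fun u => by
    rw [← reg u, show (univ : Finset Ω) = insert a (F b ∪ F c) from (eq_univ_of_forall fun v => by
      simpa only [mem_insert, mem_union] using cov v).symm, filter_insert, filter_union, add_assoc,
      ← card_union_of_disjoint (disjoint_filter_filter (disjoint_left.2 dj))]
    split_ifs
    · rw [card_insert_of_notMem (by simp only [mem_union, mem_filter]; tauto), add_comm]
    · rw [zero_add]
  refine ⟨r, inferInstance, F b, F c, inv, sym, irr, fun h => inv h, fun h => h.2, nb, aS, dj, mF b,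
    mF c, (cF b).trans hb, (cF c).trans hc, cov, fun u i => ?_, fun u i => ?_, fun u i e => hd ?_⟩
  · simpa only [if_pos (sym _ _ ((nb u).2 i))] using spl u
  · simpa only [if_neg fun h => dj u ((nb u).1 (sym _ _ h)) i, zero_add] using spl u
  have e' : (F b).filter (r u) = (F b).erase u := eq_of_subset_of_card_le (fun v hv => mem_erase.2
    ⟨fun q => irr u (q ▸ (mem_filter.1 hv).2), (mem_filter.1 hv).1⟩)
    (by rw [card_erase_of_mem i, cF b, hb]; omega)
  obtain ⟨h, h1, h2⟩ := (nb u).2 i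
  have tr : ∀ x y z, r x y → r x z → y = z ∨ r y z := fun x y z ⟨g, e1, e2⟩ q => by
    have s1 : (g * h⁻¹) • a = x := by rw [mul_smul, inv_smul_eq_iff.2 h1.symm, e1]
    have s2 : (g * h⁻¹) • u = y := by rw [mul_smul, inv_smul_eq_iff.2 h2.symm, e2]
    rw [← s1, ← smul_inv_smul (g * h⁻¹) z, inv, nb] at q
    rw [← s2, ← smul_inv_smul (g * h⁻¹) z, inv]
    by_cases n : (g * h⁻¹)⁻¹ • z = u
    · exact Or.inl (by rw [n])
    · exact Or.inr (mem_filter.1 (e' ▸ mem_erase.2 ⟨n, q⟩ : _ ∈ (F b).filter (r u))).2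
  let s : Setoid Ω := ⟨fun x y => x = y ∨ r x y, fun _ => Or.inl rfl,
    fun h => h.imp Eq.symm (sym _ _), fun {x y z} h h' => by
      rcases h with rfl | h
      · exact h'
      · rcases h' with rfl | h'
        · exact Or.inr h
        · exact tr y x z (sym _ _ h) h'⟩
  simpa using dvd_of_cls s (k + 1) 1 univ (fun _ _ _ _ => mem_univ _) fun x _ => by
    rw [one_mul, ← reg x, ← card_insert_of_notMem (a := x) (by simp [irr]), ← Set.ncard_coe_finset]
    refine dvd_of_eq (congrArg _ (Set.ext fun y => ?_))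
    simp only [coe_insert, coe_filter, mem_univ, true_and, Set.mem_insert_iff, Set.mem_ofPred_eq]
    exact ⟨fun h => h.imp id (sym _ _), fun h => h.imp id (sym _ _)⟩

end Cfsg.H7.R3
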