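import Cfsg.Agent.H7.R3S1
import Cfsg.Agent.H6.G24.Iso

/-! Recognition of the sporadic Suzuki group as a rank 3 group. -/

set_option autoImplicit false
set_option maxRecDepth 100000

open MulAction Finset

namespace Cfsg.H7.R3

theorem xMat_map (D : Lie.ChevalleyDatum) {F K : Type*} [Field F] [Field K] (f : F →+* K)
    (r : Fin D.nroots) (t : F) : (D.xMat F r t).map f = D.xMat K r (f t) := by
  ext i j
  rcases i with i | i <;> rcases j with j | j <;>
    simp only [Lie.ChevalleyDatum.xMat, Matrix.map_apply, Matrix.of_apply] <;>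
    (try split_ifs) <;> simp [map_list_sum, Function.comp_def]

theorem chev_congr (D : Lie.ChevalleyDatum) {F K : Type*} [Field F] [Field K] (f : F ≃+* K) :
    Nonempty (D.group F ≃* D.group K) := by
  let e : GL D.Idx F ≃* GL D.Idx K := MonoidHom.toMulEquiv
    (Matrix.GeneralLinearGroup.map (f : F →+* K)) (Matrix.GeneralLinearGroup.map (f.symm : K →+* F))
    (by ext A i j; simp) (by ext A i j; simp)
  have h : (D.group F).map e.toMonoidHom = D.group K := by
    unfold Lie.ChevalleyDatum.group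
    rw [MonoidHom.map_closure]
    congr 1
    ext g
    refine ⟨fun ⟨x, ⟨r, t, a⟩, b⟩ => ⟨r, f t, ?_⟩, fun ⟨r, t, a⟩ => ⟨e.symm g, ⟨r, f.symm t, ?_⟩,
      e.apply_symm_apply g⟩⟩
    · rw [← b]; exact (congrArg (·.map (f : F →+* K)) a).trans (xMat_map D _ r t)
    · exact (congrArg (·.map (f.symm : K →+* F)) a).trans (xMat_map D _ r t)
  exact ⟨(e.subgroupMap _).trans (MulEquiv.subgroupCongr h)⟩

namespace Sz

open H6 H6.Suz

noncomputable instance actSz : MulAction Spor.Suz (Fin 1782) := actF prim.orb_top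

theorem hs (g : Spor.Suz) (p : Fin 1782) : (g • p).1 = φ g p := rfl

theorem stab0 : stabilizer Spor.Suz (0 : Fin 1782) = gen ev Ws :=
  (stab_eq_fixS hs 0).trans prim.stab.symm

theorem og {bs : List ℕ} {b k U : ℕ} {W : List (List ℕ)} (hb : ltB 1782 bs = true)
    (h : lvlChk img 1782 8 bs (b, W, unp k U) = true) : OrbGe φ (⊤ ⊓ fixS φ bs) b (k + 1) :=
  by simpa only [length_unp] using (lvl_sound hφ (K := ⊤) (ltB_spec hb) (L := (b, W, unp k U))
    (fun _ _ => trivial) h).2

theorem bit0 : ∀ v < 1782, (bit r0 v = true ↔ 1 ≤ v ∧ v < 417) := by decide +kernel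

theorem model : ∃ (adj : Fin 1782 → Fin 1782 → Prop) (_ : DecidableRel adj)
    (D S C1 C3 : Finset (Fin 1782)), (∀ (g : Spor.Suz) u v, adj (g • u) (g • v) ↔ adj u v) ∧
    Nat.card (Aut adj) ≤ 2 * 448345497600 ∧
    SM (stabilizer Spor.Suz (0 : Fin 1782)) adj 0 1 417 D S C1 C3 := by
  have := pretrans hs prim.orb_top
  have o1 : orb φ (stabilizer Spor.Suz (0 : Fin 1782)) 1 = Set.Ico 1 417 := stab0 ▸ iv0 hφ
  have o2 : orb φ (stabilizer Spor.Suz (0 : Fin 1782)) 417 = Set.Ico 417 1782 := stab0 ▸ iv1 hφ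
  obtain ⟨adj, dec, D, S, inv, w⟩ := exists_OM (G := Spor.Suz) (0 : Fin 1782) 1 417 416 1365
    (ncard_Ico hs (x := 1) o1 (by norm_num) :) (ncard_Ico hs (x := 417) o2 le_rfl :) (by simp) (by norm_num) (by norm_num)
    (by norm_num) (by simp)
  have hD : ∀ v, v ∈ D ↔ bit r0 v = true := fun v => by
    rw [w.mD, mem_orbit_iff_orb hs, bit0 v v.2]; exact o1 ▸ Iff.rfl
  have hS : ∀ v, v ∈ S ↔ Nat.ble 417 v = true := fun v => by
    rw [w.mS, mem_orbit_iff_orb hs, Nat.ble_eq]
    exact o2 ▸ ⟨fun a => a.1, fun a => ⟨a, v.2⟩⟩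
  have h0 : Row adj 0 r0 := ⟨by norm_num, fun u v e => by
    rw [show u = 0 from Fin.ext e, w.nb, hD]⟩
  have rw' := fun w u M => row_sound hs hφ inv (w := w) (u := u) (M := M) h0
  have a1 := fun v => (rw' _ _ _ k1).2 1 v rfl
  have a2 := fun v => (rw' _ _ _ k2).2 2 v rfl
  have a39 := fun v => (rw' _ _ _ k39).2 39 v rfl
  have aq := fun v => (rw' _ _ _ k417).2 417 v rfl
  have a418 := fun v => (rw' _ _ _ k418).2 418 v rfl
  have a432 := fun v => (rw' _ _ _ k432).2 432 v rfl
  have a440 := fun v => (rw' _ _ _ k440).2 440 v rfl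
  let ν : Fin 1782 → Fin 1782 → ℕ := fun t t' => (D.filter fun v => adj t v ∧ adj t' v).card
  have iD := inv_of_orb w.mD
  have iS := inv_of_orb w.mS
  have nm : ∀ (g : stabilizer Spor.Suz (0 : Fin 1782)) t t', ν (g • t) (g • t') = ν t t' :=
    fun g t t' => card_filter_smul g (fun v hv => ⟨iD _ hv, iD _ hv⟩) _ _ fun v => by
      rw [w.inv, w.inv]
  have ns : ∀ t, ∀ g ∈ stabilizer (stabilizer Spor.Suz (0 : Fin 1782)) t, ∀ v,
      ν t (g • v) = ν t v := fun t g hg v => by rw [← nm g t v, mem_stabilizer_iff.1 hg]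
  have no : ∀ t x y, y ∈ orbit (stabilizer (stabilizer Spor.Suz (0 : Fin 1782)) t) x →
      ν t y = ν t x := fun t x _ ⟨g, e⟩ => e ▸ ns t g g.2 x
  have as : ∀ t, ∀ g ∈ stabilizer (stabilizer Spor.Suz (0 : Fin 1782)) t, ∀ v,
      adj t (g • v) ↔ adj t v := fun t g hg v => by rw [← w.inv g t v, mem_stabilizer_iff.1 hg]
  have nv : ∀ {t t' : Fin 1782} {M M' : ℕ}, (∀ v, adj t v ↔ bit M v = true) →
      (∀ v, adj t' v ↔ bit M' v = true) →
      ν t t' = cnt (fun v => bit r0 v && (bit M v && bit M' v)) 1782 := fun h h' =>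
    card_eq_cnt _ _ fun v => by simp only [mem_filter, hD, h, h', Bool.and_eq_true]
  have n1 : ν 1 1 = 100 := (nv a1 a1).trans (by decide +kernel)
  have n2 : ν 1 2 = 20 := (nv a1 a2).trans (by decide +kernel)
  have n3 : ν 1 39 = 36 := (nv a1 a39).trans (by decide +kernel)
  have n4 : ν 417 417 = 96 := (nv aq aq).trans (by decide +kernel)
  have n5 : ν 417 418 = 21 := (nv aq a418).trans (by decide +kernel)
  have n6 : ν 417 432 = 48 := (nv aq a432).trans (by decide +kernel)
  have n7 : ν 417 440 = 24 := (nv aq a440).trans (by decide +kernel)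
  obtain ⟨A1, A1'⟩ := isO_of (O := D.filter (adj 1)) (x := 39) (n := 100)
    (fun g hg v hv => mem_filter.2 ⟨iD g (mem_filter.1 hv).1, (as 1 g hg v).2 (mem_filter.1 hv).2⟩)
    (mem_filter.2 ⟨(hD _).2 (by decide +kernel), (a1 _).2 (by decide +kernel)⟩)
    (by simpa [ν] using n1.le) (orbGe_le hs (og (by decide) oa1))
  obtain ⟨A2, A2'⟩ := isO_of (O := D.filter fun v => ¬ adj 1 v ∧ v ≠ 1) (x := 2) (n := 315)
    (fun g hg v hv => mem_filter.2 ⟨iD g (mem_filter.1 hv).1, (as 1 g hg v).not.2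
      (mem_filter.1 hv).2.1, fun e => (mem_filter.1 hv).2.2
        (MulAction.injective g (e.trans hg.symm))⟩)
    (mem_filter.2 ⟨(hD _).2 (by decide +kernel), (a1 _).not.2 (by decide +kernel), by decide⟩)
    ((card_eq_cnt _ (fun v => bit r0 v && (!bit r1 v && !Nat.beq v 1)) fun v => by
      simp [hD, a1, Fin.ext_iff, ← Bool.not_eq_true]).le.trans (by decide +kernel))
    (orbGe_le hs (og (by decide) oa2))
  obtain ⟨B1, -⟩ := isO_of (O := D.filter (adj 417)) (x := 1) (n := 96)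
    (fun g hg v hv => mem_filter.2 ⟨iD g (mem_filter.1 hv).1,
      (as 417 g hg v).2 (mem_filter.1 hv).2⟩)
    (mem_filter.2 ⟨(hD _).2 (by decide +kernel), (aq _).2 (by decide +kernel)⟩)
    (by simpa [ν] using n4.le) (orbGe_le hs (og (by decide) ob1))
  obtain ⟨B2, -⟩ := isO_of (O := D.filter fun v => ¬ adj 417 v) (x := 11) (n := 320)
    (fun g hg v hv => mem_filter.2 ⟨iD g (mem_filter.1 hv).1,
      (as 417 g hg v).not.2 (mem_filter.1 hv).2⟩)
    (mem_filter.2 ⟨(hD _).2 (by decide +kernel), (aq _).not.2 (by decide +kernel)⟩)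
    (by have := card_filter_add_card_filter_not (s := D) (adj 417)
        rw [B1.card, w.cD] at this; omega) (orbGe_le hs (og (by decide) ob2))
  obtain ⟨C2, C2'⟩ := isO_of (O := S.filter (adj 417)) (x := 440) (n := 320)
    (fun g hg v hv => mem_filter.2 ⟨iS g (mem_filter.1 hv).1,
      (as 417 g hg v).2 (mem_filter.1 hv).2⟩)
    (mem_filter.2 ⟨(hS _).2 (by decide), (aq _).2 (by decide +kernel)⟩)
    (by have := w.rS 417 ((hS _).2 (by decide))
        rw [B1.card] at this; omega) (orbGe_le hs (og (by decide) oc2))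
  let C : ℕ → Finset (Fin 1782) := fun k => S.filter fun v => ¬ adj 417 v ∧ ν 417 v = k
  have iC : ∀ k, Inv (stabilizer (stabilizer Spor.Suz (0 : Fin 1782)) (417 : Fin 1782)) (C k) :=
    fun k g hg v hv => mem_filter.2 ⟨iS g (mem_filter.1 hv).1, (as 417 g hg v).not.2
      (mem_filter.1 hv).2.1, (ns 417 g hg v).trans (mem_filter.1 hv).2.2⟩
  have m1 : (432 : Fin 1782) ∈ C 48 :=
    mem_filter.2 ⟨(hS _).2 (by decide), (aq _).not.2 (by decide +kernel), n6⟩
  have m3 : (418 : Fin 1782) ∈ C 21 :=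
    mem_filter.2 ⟨(hS _).2 (by decide), (aq _).not.2 (by decide +kernel), n5⟩
  have lC : ∀ k x, x ∈ C k → (orbit (stabilizer (stabilizer Spor.Suz (0 : Fin 1782))
      (417 : Fin 1782)) x).ncard ≤ (C k).card := fun k x m => (Set.ncard_le_ncard (t := C k)
    (by rintro _ ⟨g, rfl⟩; exact iC k g g.2 _ m) (finite_toSet _)).trans (Set.ncard_coe_finset _).le
  have l1 : 20 ≤ (C 48).card := (orbGe_le hs (og (by decide) oc1)).trans (lC _ _ m1)
  have l3 : 1024 ≤ (C 21).card := (orbGe_le hs (og (by decide) oc3)).trans (lC _ _ m3)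
  have dC : Disjoint (C 48) (C 21) := disjoint_left.2 fun v a b =>
    absurd ((mem_filter.1 a).2.2.symm.trans (mem_filter.1 b).2.2) (by norm_num)
  have sC : insert 417 (C 48 ∪ C 21) ⊆ S.filter fun v => ¬ adj 417 v := fun v hv => by
    simp only [mem_insert, mem_union, C, mem_filter] at hv ⊢
    rcases hv with rfl | h | h
    · exact ⟨(hS _).2 (by decide), w.irr _⟩
    · exact ⟨h.1, h.2.1⟩
    · exact ⟨h.1, h.2.1⟩
  have cC : (insert 417 (C 48 ∪ C 21)).card = (C 48).card + (C 21).card + 1 := by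
    rw [card_insert_of_notMem (by simp [C, n4]), card_union_of_disjoint dC]
  have c0 := card_filter_add_card_filter_not (s := S) (adj 417)
  have c1 := card_le_card sC
  rw [C2.card, w.cS] at c0
  have eC := eq_of_subset_of_card_le sC (by omega)
  have cv : ∀ v ∈ S, v = 417 ∨ v ∈ C 48 ∨ v ∈ C 21 ∨ adj 417 v := fun v hv => by
    by_cases a : adj 417 v
    · simp [a]
    · have : v ∈ insert 417 (C 48 ∪ C 21) := eC ▸ mem_filter.2 ⟨hv, a⟩
      simp only [mem_insert, mem_union] at this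
      tauto
  refine ⟨adj, dec, D, S, C 48, C 21, inv, pch ▸ aut_le (rch h0 rw') kch, ?_, w.sym, w.irr, w.inv,
    w.fix, w.nb, w.oS, w.dj, w.mD, w.mS, w.cD, w.cS, A1, A2, fun t ht t' ht' => ?_, B1, B2,
    (isO_of (iC 48) m1 (by omega) (orbGe_le hs (og (by decide) oc1))).1, C2,
    (isO_of (iC 21) m3 (by omega) (orbGe_le hs (og (by decide) oc3))).1, fun E hE hq => ?_,
    fun v hv h => ?_⟩
  · have := (gen ev Ws).index_mul_card
    rw [prim.index, main.1] at this
    rw [stab0]; omega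
  · obtain ⟨g, rfl⟩ := (w.mD t).1 ht
    obtain ⟨u, rfl⟩ := (toPerm g).surjective t'
    have hu : u ∈ D := by simpa using iD g⁻¹ ht'
    show ν (g • 1) (g • u) = if g • 1 = g • u then _ else if adj (g • 1) (g • u) then _ else _
    simp only [nm, w.inv, smul_left_cancel_iff]
    split_ifs with i j
    · rw [← i, n1]
    · rw [no _ _ _ (A1' u (mem_filter.2 ⟨hu, j⟩)), n3]
    · rw [no _ _ _ (A2' u (mem_filter.2 ⟨hu, j, Ne.symm i⟩)), n2]
  · rw [← card_filter_add_card_filter_not (s := E) (adj 417), show E.filter (adj 417) =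
      E ∩ S.filter (adj 417) by ext v; simp only [mem_filter, mem_inter]; have := @hE v; tauto,
      show (E.filter fun v => ¬ adj 417 v) = E ∩ C 48 ∪ E ∩ C 21 from ext fun v => ?_,
      card_union_of_disjoint (dC.mono inter_subset_right inter_subset_right)]
    · omega
    simp only [mem_filter, mem_inter, mem_union]
    refine ⟨fun a => ?_, fun a => a.elim (fun a => ⟨a.1, (mem_filter.1 a.2).2.1⟩)
      fun a => ⟨a.1, (mem_filter.1 a.2).2.1⟩⟩
    rcases cv v (hE a.1) with rfl | h | h | h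
    · exact absurd a.1 hq
    · exact Or.inl ⟨a.1, h⟩
    · exact Or.inr ⟨a.1, h⟩
    · exact absurd h a.2
  · have e : ν 417 v = 96 := B1.card ▸ congrArg card (filter_congr fun x hx =>
      ⟨fun a => a.1, fun a => ⟨a, h x hx a⟩⟩)
    rcases cv v hv with rfl | h | h | h
    · rfl
    · exact absurd (e.symm.trans (mem_filter.1 h).2.2) (by norm_num)
    · exact absurd (e.symm.trans (mem_filter.1 h).2.2) (by norm_num)
    · rw [no _ _ _ (C2' v (mem_filter.2 ⟨hv, h⟩)), n7] at e; omega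

theorem s1668 {Ω : Type*} [Fintype Ω] [DecidableEq Ω] (hΩ : Fintype.card Ω = 1782)
    (G : Subgroup (Equiv.Perm Ω)) [IsPretransitive G Ω] (a : Ω) (K : Type) [Field K] [Fintype K]
    (hK : Fintype.card K = 4) (e : stabilizer G a ≃* Lie.chevG2.group K) (b c : Ω)
    (hb : (orbit (stabilizer G a) b).ncard = 416) (hc : (orbit (stabilizer G a) c).ncard = 1365) :
    Spor.IsoSuz G := by
  obtain ⟨adj, _, D, S, C1, C3, inv, hA, m⟩ := model
  obtain ⟨r, _, D', S', inv', w⟩ := exists_OM a b c 416 1365 hb hc hΩ (by norm_num) (by norm_num)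
    (by norm_num) (by rw [hΩ]; norm_num)
  obtain ⟨e1⟩ := G24.iso_sub
  obtain ⟨e2⟩ := G24.iso_chev
  obtain ⟨e3⟩ := chev_congr Lie.chevG2 (FiniteField.ringEquivOfCardEq (F4.card.trans hK.symm))
  let θ := (MulEquiv.subgroupCongr stab0).trans (e1.symm.trans (e2.trans (e3.trans e.symm)))
  letI := MulAction.compHom Ω θ.toMonoidHom
  obtain ⟨f, hf⟩ := m.graph (by simpa using hΩ) (w.comp θ)
  have := simple
  have := faithful hs lb.2 main.2.1
  refine iso_of_aut' adj inv (main.1 ▸ hA) (by rw [main.1]; norm_num) G r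
    (fun g hg => inv' ⟨g, hg⟩) f hf ?_
  have i := (stabilizer G a).index_mul_card
  rw [index_stabilizer_of_transitive, Nat.card_eq_fintype_card, hΩ,
    ← Nat.card_congr θ.toEquiv, m.card] at i
  rw [← i, main.1]

end Sz

end Cfsg.H7.R3
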