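import Cfsg.Agent.H7.R3M
import Cfsg.Agent.H6.Inv

/-! Packed integer vectors in base 256. -/

set_option autoImplicit false

open Finset

namespace Cfsg.H7.Ru

open H6

theorem nthN_eq (L : List ℕ) (i : ℕ) : nthN L i = L.getD i 0 := by
  induction L generalizing i with
  | nil => rfl
  | cons w L ih => cases i with
    | zero => rfl
    | succ j => exact ih j

def one (n : ℕ) : ℕ := Nat.div (Nat.sub (Nat.pow 256 n) 1) 255

theorem one_eq (n : ℕ) : one n = ∑ j ∈ range n, 256 ^ j := (Nat.geomSum_eq (by norm_num) n).symm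

def pk (n : ℕ) (x : ℕ → ℤ) : ℤ := ∑ j ∈ range n, x j * 256 ^ j

theorem pk_succ (n : ℕ) (x : ℕ → ℤ) : pk (n + 1) x = x 0 + 256 * pk n fun j => x (j + 1) := by
  simp only [pk, sum_range_succ', mul_sum, pow_succ, pow_zero, mul_one, add_comm (x 0)]
  congr 1
  exact sum_congr rfl fun _ _ => by ring

theorem pk_const (n : ℕ) (c : ℤ) : pk n (fun _ => c) = c * one n := by
  simp [pk, one_eq, mul_sum]

theorem pk_add (n : ℕ) (x y : ℕ → ℤ) : pk n (fun j => x j + y j) = pk n x + pk n y := by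
  simp [pk, add_mul, sum_add_distrib]

theorem pk_sub (n : ℕ) (x y : ℕ → ℤ) : pk n (fun j => x j - y j) = pk n x - pk n y := by
  simp [pk, sub_mul, sum_sub_distrib]

theorem pk_mul (n : ℕ) (c : ℤ) (x : ℕ → ℤ) : pk n (fun j => c * x j) = c * pk n x := by
  simp [pk, mul_sum, mul_assoc]

theorem pk_congr {n : ℕ} {x y : ℕ → ℤ} (h : ∀ j < n, x j = y j) : pk n x = pk n y :=
  sum_congr rfl fun j hj => by rw [h j (mem_range.1 hj)]

theorem dg_zero (X : ℕ) : dg X 0 = X % 256 := by simp [dg_eq]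

theorem dg_succ (X j : ℕ) : dg X (j + 1) = dg (X / 256) j := by
  rw [dg_eq, dg_eq, Nat.div_div_eq_div_mul, pow_succ']

theorem dg_lt (X j : ℕ) : dg X j < 256 := by rw [dg_eq]; exact Nat.mod_lt _ (by norm_num)

theorem pk_dg (n : ℕ) : ∀ X : ℕ, (X : ℤ) ≡ pk n (fun j => dg X j) [ZMOD 256 ^ n] := by
  induction n with
  | zero => intro X; simp [Int.modEq_one]
  | succ n ih =>
    intro X
    simp only [pk_succ, dg_succ, dg_zero]
    have := (ih (X / 256)).mul_left' (c := 256)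
    rw [← pow_succ'] at this
    refine .trans (Eq.subst (motive := fun y => (X : ℤ) ≡ y [ZMOD _]) ?_ (.refl _))
      (this.add_left ((X % 256 : ℕ) : ℤ))
    omega

theorem pk_zero (n : ℕ) : ∀ x : ℕ → ℤ, (∀ j < n, |x j| < 256) → 256 ^ n ∣ pk n x →
    ∀ j < n, x j = 0 := by
  induction n with
  | zero => intro _ _ _ j h; omega
  | succ n ih =>
    intro x h d
    rw [pk_succ, pow_succ'] at d
    have e : x 0 = 0 := Int.eq_zero_of_abs_lt_dvd ((Int.dvd_add_left (dvd_mul_right _ _)).1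
      ((dvd_mul_right _ _).trans d)) (h 0 (by omega))
    rw [e, zero_add] at d
    have := ih _ (fun j hj => h (j + 1) (by omega)) (Int.dvd_of_mul_dvd_mul_left (by norm_num) d)
    rintro (_ | j) hj
    exacts [e, this j (by omega)]

theorem eq_of_pk {n : ℕ} {x y : ℕ → ℤ} (h : ∀ j < n, |x j - y j| < 256)
    (e : pk n x ≡ pk n y [ZMOD 256 ^ n]) (j : ℕ) (hj : j < n) : x j = y j :=
  sub_eq_zero.1 (pk_zero n _ h (by rw [pk_sub]; exact e.symm.dvd) j hj)

theorem dg_of {n X : ℕ} {x : ℕ → ℤ} (h : ∀ j < n, 0 ≤ x j ∧ x j < 256)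
    (e : (X : ℤ) ≡ pk n x [ZMOD 256 ^ n]) (j : ℕ) (hj : j < n) : (dg X j : ℤ) = x j :=
  eq_of_pk (x := fun j => dg X j) (fun j hj => by
    have := h j hj
    have := dg_lt X j
    rw [abs_lt]; omega) ((pk_dg n X).symm.trans e) j hj

/-- the coordinates of a packed vector -/
def co (v j : ℕ) : ℤ := (dg v j : ℤ) - 4

noncomputable def stp (N d z acc : ℕ) : ℕ :=
  @Nat.rec (fun _ => ℕ) (@Nat.rec (fun _ => ℕ) acc
    (fun y _ => Nat.add (Nat.mul (Nat.succ y) (Nat.sub N z)) acc) (Nat.sub (nat_lit 4) d))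
    (fun y _ => Nat.add (Nat.mul (Nat.succ y) z) acc) (Nat.sub d (nat_lit 4))

theorem stp_eq {N z : ℕ} (h : z ≤ N) (d acc : ℕ) :
    (stp N d z acc : ℤ) ≡ ((d : ℤ) - 4) * z + acc [ZMOD N] := by
  unfold stp
  cases e : Nat.sub d 4 with
  | succ y =>
    have : (d : ℤ) - 4 = y + 1 := by have : d - 4 = y + 1 := e; omega
    rw [this]; exact Eq.subst (motive := fun y => _ ≡ y [ZMOD _]) (by simp) (.refl _)
  | zero =>
    have e' : d - 4 = 0 := e
    cases e2 : Nat.sub 4 d with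
    | zero =>
      have : (d : ℤ) - 4 = 0 := by have : 4 - d = 0 := e2; omega
      rw [this]; simp
    | succ y =>
      have : (d : ℤ) - 4 = -(y + 1) := by have : 4 - d = y + 1 := e2; omega
      rw [this]
      refine (Int.modEq_iff_dvd.2 ⟨-(y + 1), ?_⟩)
      show _ - (((y + 1) * (N - z) + acc : ℕ) : ℤ) = _
      push_cast [h]; ring

noncomputable def lin (N : ℕ) (Z : List ℕ) : ℕ → ℕ :=
  @List.rec _ (fun _ => ℕ → ℕ) (fun _ => nat_lit 0)
    (fun z _ ih v => stp N (Nat.land v (nat_lit 255)) z (ih (Nat.shiftRight v (nat_lit 8)))) Z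

theorem lin_eq {N : ℕ} (Z : List ℕ) (h : ∀ z ∈ Z, z ≤ N) : ∀ v,
    (lin N Z v : ℤ) ≡ ∑ j ∈ range Z.length, co v j * Z.getD j 0 [ZMOD N] := by
  induction Z with
  | nil => intro v; rfl
  | cons z Z ih =>
    intro v
    show (stp N (Nat.land v 255) z (lin N Z (Nat.shiftRight v 8)) : ℤ) ≡ _ [ZMOD N]
    rw [List.length_cons, sum_range_succ', add_comm, land_mask v 8 255 rfl, shr_eq]
    refine (stp_eq (h z List.mem_cons_self) _ _).trans (.add ?_ ?_)
    · simp [co, dg_zero]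
    · simp only [co, dg_succ, List.getD_cons_succ]
      exact ih (fun x i => h x (List.mem_cons_of_mem _ i)) (v / 256)

/-- the linear combination of packed columns -/
theorem lin_pk {n : ℕ} {Z : List ℕ} {c : ℕ → ℕ → ℤ} (hl : Z.length = 56) (h : ∀ z ∈ Z, z ≤ 256 ^ n)
    (hc : ∀ j < 56, (Z.getD j 0 : ℤ) ≡ pk n (c j) [ZMOD 256 ^ n]) (v : ℕ) :
    (lin (256 ^ n) Z v : ℤ) ≡ pk n (fun q => ∑ j ∈ range 56, co v j * c j q) [ZMOD 256 ^ n] := by
  have := lin_eq Z h v
  rw [hl, Nat.cast_pow, Nat.cast_ofNat] at this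
  refine this.trans ?_
  simp only [pk, sum_mul]
  rw [sum_comm]
  exact Int.ModEq.sum fun j hj => by
    simpa only [pk, mul_sum, mul_assoc] using (hc j (mem_range.1 hj)).mul_left (co v j)

/-- membership in a strided mask -/
def mem (M v : ℕ) : Prop := M.testBit (8 * v) = true

instance decMem (M v : ℕ) : Decidable (mem M v) := inferInstanceAs (Decidable (_ = _))

noncomputable def mb (M v : ℕ) : Bool := R3.bit M (Nat.mul (nat_lit 8) v)

theorem mb_iff {M v : ℕ} : mb M v = true ↔ mem M v := by rw [mb, R3.bit_eq]; rfl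

theorem mem_iff_dg {M v : ℕ} : mem M v ↔ dg M v % 2 = 1 := by
  rw [mem, Nat.testBit_eq_decide_div_mod_eq, decide_eq_true_eq, dg_eq, pow_mul,
    Nat.mod_mod_of_dvd _ (by norm_num)]
  rfl

theorem mem_land {A B v : ℕ} : mem (Nat.land A B) v ↔ mem A v ∧ mem B v := by
  show (A &&& B).testBit _ = true ↔ _
  rw [Nat.testBit_and, Bool.and_eq_true]; rfl

theorem mem_lor {A B v : ℕ} : mem (Nat.lor A B) v ↔ mem A v ∨ mem B v := by
  show (A ||| B).testBit _ = true ↔ _
  rw [Nat.testBit_or, Bool.or_eq_true]; rfl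

theorem mem_xor {A B v : ℕ} : mem (Nat.xor A B) v ↔ ¬ (mem A v ↔ mem B v) := by
  show (A ^^^ B).testBit _ = true ↔ ¬ (A.testBit _ = true ↔ B.testBit _ = true)
  rw [Nat.testBit_xor]
  cases A.testBit (8 * v) <;> cases B.testBit (8 * v) <;> simp

/-- the set difference -/
def df (A B : ℕ) : ℕ := Nat.xor A (Nat.land A B)

theorem mem_df {A B v : ℕ} : mem (df A B) v ↔ mem A v ∧ ¬ mem B v := by
  rw [df, mem_xor, mem_land]; tauto

/-- a single point -/
def sg (x : ℕ) : ℕ := Nat.pow (nat_lit 2) (Nat.mul (nat_lit 8) x)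

theorem mem_sg {x v : ℕ} : mem (sg x) v ↔ v = x := by
  show (2 ^ (8 * x)).testBit _ = true ↔ _
  rw [Nat.testBit_two_pow, decide_eq_true_eq]; omega

theorem not_mem_zero (v : ℕ) : ¬ mem 0 v := by simp [mem]

theorem dg_land (A B j : ℕ) : dg (Nat.land A B) j = dg A j &&& dg B j := by
  show dg (A &&& B) j = _
  rw [dg_eq, dg_eq, dg_eq, show 256 ^ j = 2 ^ (8 * j) from (pow_mul 2 8 j).symm, Nat.and_div_two_pow,
    show 256 = 2 ^ 8 from rfl, Nat.and_mod_two_pow]

theorem dg_one {n j : ℕ} (h : j < n) : dg (one n) j = 1 := by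
  have := dg_of (X := one n) (x := fun _ => 1) (n := n) (by simp) (by simp [pk_const]) j h
  omega

theorem mem_one {n j : ℕ} (h : j < n) : mem (one n) j := by rw [mem_iff_dg, dg_one h]

theorem one_lt (n : ℕ) : one n < 256 ^ n := by
  have : 0 < 256 ^ n := by positivity
  exact (Nat.div_le_self _ _).trans_lt (Nat.sub_lt this one_pos)

theorem eq_pk {n X : ℕ} (h : X < 256 ^ n) : (X : ℤ) = pk n (fun j => dg X j) := by
  induction n generalizing X with
  | zero => simp [pk]; omega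
  | succ n ih =>
    simp only [pk_succ, dg_succ, dg_zero]
    rw [← ih (Nat.div_lt_of_lt_mul (by rwa [pow_succ'] at h))]
    omega

/-- the number of points modulo 255 -/
def ct (n M : ℕ) : ℕ := Nat.mod (Nat.land M (one n)) (nat_lit 255)

theorem ct_eq (n M : ℕ) : ct n M = #{j ∈ range n | mem M j} % 255 := by
  have e := eq_pk (X := Nat.land M (one n)) (Nat.and_le_right.trans_lt (one_lt n))
  have : pk n (fun j => dg (Nat.land M (one n)) j) ≡ #{j ∈ range n | mem M j} [ZMOD 255] := by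
    rw [card_filter, Nat.cast_sum]
    refine Int.ModEq.sum fun j hj => ?_
    simp only [dg_land, dg_one (mem_range.1 hj), Nat.and_one_is_mod, mem_iff_dg]
    have : (256 : ℤ) ^ j ≡ 1 ^ j [ZMOD 255] := Int.ModEq.pow j (by decide)
    refine (this.mul_left _).trans ?_
    rcases Nat.mod_two_eq_zero_or_one (dg M j) with h | h <;> simp [h]
  rw [← e] at this
  exact Int.natCast_modEq_iff.1 this

theorem ct_fin {n : ℕ} (M : ℕ) (P : Fin n → Prop) [DecidablePred P] (h : ∀ v, P v ↔ mem M v) :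
    ct n M = #{v | P v} % 255 := by
  rw [ct_eq, ← Nat.Iio_eq_range, ← Fin.map_valEmbedding_univ, filter_map, card_map]
  simp only [h]; rfl

/-- a block of 64 digits -/
def chk (X c : ℕ) : ℕ := Nat.mod (Nat.shiftRight X (Nat.mul (nat_lit 512) c)) (Nat.pow (nat_lit 2) (nat_lit 512))

set_option exponentiation.threshold 600 in
theorem dg_chk (X c : ℕ) {i : ℕ} (h : i < 64) : dg (chk X c) i = dg X (64 * c + i) := by
  show dg (Nat.shiftRight X (512 * c) % 2 ^ 512) i = _
  rw [shr_eq, dg_eq, dg_eq, pow_add, ← Nat.div_div_eq_div_mul, show 512 * c = 8 * (64 * c) by ring,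
    pow_mul, show 2 ^ 512 = 256 ^ i * (256 * 256 ^ (63 - i)) by
      rw [← pow_succ', ← pow_add, show i + (63 - i + 1) = 64 by omega]; exact pow_mul 2 8 64,
    Nat.mod_mul_right_div_self, Nat.mod_mul_right_mod]
  rfl

end Cfsg.H7.Ru
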