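import Cfsg.Agent.H7.RuT
import Cfsg.Agent.H2.SporRu

/-! Real coordinates, inner products and the kernel checkers for the minimal vectors. -/

set_option autoImplicit false
set_option maxRecDepth 100000
set_option exponentiation.threshold 5000

open Finset Matrix

namespace Cfsg.H7.Ru

open H6 Spor

def pos (p : RuIdx) : ℕ := 4 * p.1 + p.2

def ix (n : ℕ) : RuIdx := (⟨n / 4 % 7, Nat.mod_lt _ (by norm_num)⟩, ⟨n % 4, Nat.mod_lt _ (by norm_num)⟩)

theorem ix_pos : ∀ p, ix (pos p) = p := by decide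

theorem pos_ix : ∀ n < 28, pos (ix n) = n := by decide

theorem pos_lt : ∀ p, pos p < 28 := by decide

def rc (j : ℕ) : RuVec →+ ℤ where
  toFun x := if j % 2 = 0 then (x (ix (j / 2))).re else (x (ix (j / 2))).im
  map_zero' := by simp
  map_add' x y := by split_ifs <;> simp

theorem rc_re (x : RuVec) (p : RuIdx) : rc (2 * pos p) x = (x p).re := by
  simp [rc, ix_pos]

theorem rc_im (x : RuVec) (p : RuIdx) : rc (2 * pos p + 1) x = (x p).im := by
  simp [rc, Nat.add_mod, Nat.mul_add_div, ix_pos]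

theorem idx_cases {j : ℕ} (h : j < 56) : ∃ p, j = 2 * pos p ∨ j = 2 * pos p + 1 :=
  ⟨ix (j / 2), by rw [pos_ix _ (by omega)]; omega⟩

theorem ext_rc {x y : RuVec} (h : ∀ j < 56, rc j x = rc j y) : x = y := funext fun p => by
  have := pos_lt p
  ext
  · rw [← rc_re, ← rc_re, h _ (by omega)]
  · rw [← rc_im, ← rc_im, h _ (by omega)]

theorem sum_pos (F : ℕ → ℤ) : ∑ p, (F (2 * pos p) + F (2 * pos p + 1)) = ∑ j ∈ range 56, F j := by
  simp only [Fintype.sum_prod_type, Fin.sum_univ_succ, Fin.sum_univ_zero, sum_range_succ,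
    sum_range_zero, pos, Fin.val_succ, Fin.val_zero]
  norm_num
  abel

def ofR (y : ℕ → ℤ) : RuVec := fun p => ⟨y (2 * pos p), y (2 * pos p + 1)⟩

theorem rc_ofR (y : ℕ → ℤ) {j : ℕ} (h : j < 56) : rc j (ofR y) = y j := by
  obtain ⟨p, rfl | rfl⟩ := idx_cases h
  exacts [rc_re _ p, rc_im _ p]

/-- the Hermitian form -/
def hm (x y : RuVec) : GaussianInt := star x ⬝ᵥ y

theorem hm_re (x y : RuVec) : (hm x y).re = ∑ j ∈ range 56, rc j x * rc j y := by
  rw [← sum_pos, hm, dotProduct]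
  refine Eq.trans (b := ∑ i, (star x i * y i).re) (map_sum (AddMonoidHom.mk'
    (fun z : GaussianInt => z.re) fun _ _ => rfl) (fun i => star x i * y i) univ) ?_
  simp [rc_re, rc_im]

theorem norm_eq (x : RuVec) : ruNorm x = (hm x x).re := by
  rw [hm_re, ← sum_pos]
  simp [ruNorm, rc_re, rc_im, Zsqrtd.norm_def]

theorem hm_smul (a b : GaussianInt) (x y : RuVec) : hm (a • x) (b • y) = star a * b * hm x y := by
  simp [hm, star_smul, mul_assoc, mul_left_comm]

theorem hm_star (x y : RuVec) : hm y x = star (hm x y) := by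
  simp [hm, dotProduct, mul_comm]

theorem hm_add_l (x y z : RuVec) : hm (x + y) z = hm x z + hm y z := by simp [hm]

theorem hm_add_r (x y z : RuVec) : hm z (x + y) = hm z x + hm z y := by simp [hm]

theorem hm_im (x y : RuVec) : (hm x y).im = (hm (gI • x) y).re := by
  simpa [gI] using (congrArg Zsqrtd.re (hm_smul gI 1 x y)).symm

theorem hm_self (x : RuVec) : hm x x = (ruNorm x : ℤ) := by
  have := congrArg Zsqrtd.im (hm_star x x)
  ext
  · simp [norm_eq]
  · simp at this ⊢; omega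

theorem sq_le (x : RuVec) {j : ℕ} (h : j < 56) : rc j x * rc j x ≤ ruNorm x := by
  rw [norm_eq, hm_re]
  exact single_le_sum (f := fun j => rc j x * rc j x) (fun _ _ => mul_self_nonneg _) (mem_range.2 h)

theorem abs_le_of {a b : ℤ} (h : a * a ≤ b * b) (hb : 0 ≤ b) : -b ≤ a ∧ a ≤ b :=
  abs_le.1 (abs_le_of_sq_le_sq' (by nlinarith) hb |> fun h => abs_le.2 h)

theorem hm_bd {x y : RuVec} (hx : ruNorm x = 16) (hy : ruNorm y = 16) :
    -16 ≤ (hm x y).re ∧ (hm x y).re ≤ 16 := by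
  have a : 0 ≤ ∑ j ∈ range 56, (rc j x + rc j y) ^ 2 := sum_nonneg fun _ _ => sq_nonneg _
  have b : 0 ≤ ∑ j ∈ range 56, (rc j x - rc j y) ^ 2 := sum_nonneg fun _ _ => sq_nonneg _
  rw [norm_eq, hm_re] at hx hy
  simp only [add_sq, sub_sq, sum_add_distrib, sum_sub_distrib, mul_assoc, ← mul_sum] at a b
  simp only [sq] at a b
  rw [hm_re]; omega

theorem gI_pow (e : ℕ) : gI ^ e = gI ^ (e % 4) := by
  conv_lhs => rw [← Nat.div_add_mod e 4, pow_add, pow_mul, show gI ^ 4 = 1 from rfl, one_pow, one_mul]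

theorem norm_pow (e : ℕ) (x : RuVec) : ruNorm (gI ^ e • x) = ruNorm x := by
  have : star (gI ^ e) * gI ^ e = 1 := by rw [star_pow, ← mul_pow]; exact one_pow e
  rw [norm_eq, hm_smul, this, one_mul, norm_eq]

/-- the listed vectors -/
noncomputable def sv (m : ℕ) : RuVec := ofR (co (tv m))

noncomputable def nrm (v n : ℕ) : ℕ := @Nat.rec (fun _ => ℕ) (nat_lit 0) (fun j acc => Nat.add
  (frc (fun d => Nat.pow (Nat.add (Nat.sub d (nat_lit 4)) (Nat.sub (nat_lit 4) d)) (nat_lit 2))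
    (dg v j)) acc) n

theorem nrm_eq (v : ℕ) : ruNorm (ofR (co v)) = nrm v 56 := by
  rw [norm_eq, hm_re, sum_congr rfl fun j hj => by rw [rc_ofR _ (mem_range.1 hj)]]
  generalize 56 = n
  induction n with
  | zero => rfl
  | succ n ih =>
    rw [sum_range_succ, ih, add_comm, show nrm v (n + 1) = frc (fun d => (d - 4 + (4 - d)) ^ 2)
      (dg v n) + nrm v n from rfl, frc_eq, co]
    rcases le_total (dg v n) 4 with h | h
    · rw [Nat.sub_eq_zero_of_le h]; push_cast [h]; ring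
    · rw [Nat.sub_eq_zero_of_le h]; push_cast [h]; ring

noncomputable def vChk' (v w : ℕ) : Bool := andB (Nat.beq (nrm v 56) 16)
  (allR (fun p => andB (Nat.beq (Nat.add (dg w (Nat.mul 2 p)) (dg v (Nat.succ (Nat.mul 2 p)))) 8)
    (Nat.beq (dg w (Nat.succ (Nat.mul 2 p))) (dg v (Nat.mul 2 p)))) 0 28)

noncomputable def vChk (k : ℕ) : Bool := vChk' (tv k) (tv (Nat.add k 4060))

theorem vChk_spec {k : ℕ} (h : vChk k = true) : ruNorm (sv k) = 16 ∧ sv (k + 4060) = gI • sv k := by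
  simp only [vChk, vChk', andB_eq_true, Nat.beq_eq] at h
  refine ⟨by rw [sv, nrm_eq, h.1]; rfl, funext fun p => ?_⟩
  have := allR_spec h.2 (pos p) (Nat.zero_le _) (by simpa using pos_lt p)
  simp only [andB_eq_true, Nat.beq_eq, Nat.add_eq, Nat.mul_eq, Nat.succ_eq_add_one] at this
  ext <;> simp [sv, ofR, gI, co] <;> omega

def NB : ℕ := Nat.pow (nat_lit 256) (nat_lit 4060)

def ON : ℕ := one (nat_lit 4060)

noncomputable def cChk (j : ℕ) : Bool := andB (Nat.ble (nthN ZL j) NB)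
  (allR (fun c => frcB (fun c => allR (fun i => frcB (fun k => Nat.ble 4060 k ||
    Nat.beq (dg (chk (Nat.mod (Nat.add (nthN ZL j) (Nat.mul 4 ON)) NB) c) i) (dg (tv k) j))
      (Nat.add (Nat.mul 64 c) i)) 0 64) c) 0 64)

theorem cChk_spec {j : ℕ} (h : cChk j = true) : ZL.getD j 0 ≤ 256 ^ 4060 ∧
    (ZL.getD j 0 : ℤ) ≡ pk 4060 (fun k => co (tv k) j) [ZMOD 256 ^ 4060] := by
  simp only [cChk, frcB_eq, andB_eq_true, Nat.ble_eq, nthN_eq] at h
  refine ⟨h.1, ?_⟩
  generalize ZL.getD j 0 = z at h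
  have e := pk_dg 4060 ((z + 4 * one 4060) % 256 ^ 4060)
  rw [pk_congr (y := fun k => co (tv k) j + 4) fun k hk => by
    have := allR_spec (allR_spec h.2 (k / 64) (Nat.zero_le _) (by omega)) (k % 64) (Nat.zero_le _)
      (by omega)
    simp only [Nat.add_eq, Nat.mul_eq, Nat.div_add_mod, Bool.or_eq_true, Nat.ble_eq, Nat.beq_eq,
      dg_chk _ _ (Nat.mod_lt k (by norm_num))] at this
    rw [co, ← this.resolve_left (by omega), sub_add_cancel]; rfl, pk_add, pk_const] at e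
  generalize one 4060 = o at e
  push_cast at e
  exact ((Int.mod_modEq _ _).symm.trans e).add_right_cancel' _

/-- the inner products with all listed vectors -/
noncomputable def XR (v : ℕ) : ℕ := Nat.mod (Nat.add (lin NB ZL v) (Nat.mul (nat_lit 64) ON)) NB

noncomputable def row (u : ℕ) : ℕ := df (df ON (Nat.shiftRight
  (Nat.lor (XR (tv u)) (XR (tv (Nat.add u (nat_lit 4060))))) (nat_lit 2))) (sg u)

def big (A : ℕ) : ℕ := df (Nat.shiftRight A 4) (Nat.shiftRight A 2)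

noncomputable def pChk' (u A B : ℕ) : Bool :=
  andB (Nat.beq (Nat.land (Nat.lor A B) (Nat.mul 3 ON)) 0)
    (Nat.beq (Nat.land (Nat.lor (big A) (big B)) ON) (sg u))

noncomputable def pChk (u : ℕ) : Bool := pChk' u (XR (tv u)) (XR (tv (Nat.add u 4060)))

theorem mem_shr (X k : ℕ) {s : ℕ} (h : s < 8) :
    mem (Nat.shiftRight X s) k ↔ (dg X k).testBit s = true := by
  show (X >>> s).testBit _ = true ↔ _
  rw [dg_eq, show 256 = 2 ^ 8 from rfl, Nat.testBit_mod_two_pow, ← pow_mul, Nat.testBit_div_two_pow,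
    Nat.testBit_shiftRight]
  simp [h]

def N5 : ℕ := Nat.pow (nat_lit 256) (nat_lit 56)

def O5 : ℕ := one (nat_lit 56)

noncomputable def zu' (e v : ℕ) : ℕ := Nat.mod (sel 2 (Nat.mod e 4)
  (Nat.add v (Nat.sub N5 (Nat.mul 4 O5))) (Nat.sub (Nat.add N5 (Nat.mul 4 O5)) (Nat.mod v N5))) N5

noncomputable def zu (l e : ℕ) : ℕ := zu' e (tv (Nat.add l (Nat.mul 4060 (Nat.mod e 2))))

noncomputable def fl (x p : ℕ) : ℕ := im2 x (nthN frL p)

noncomputable def mChk (x : ℕ) : Bool := andB (Nat.beq (nthW zs x).length 56) (andB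
  (allR (fun j => andB (Nat.blt (fl x (j / 2) / 4) 4060) (Nat.beq (nthN (nthW zs x) j)
    (zu (fl x (j / 2) / 4) (j % 2 + fl x (j / 2) % 4)))) 0 56)
  (allR (fun p => allR (fun q => Nat.beq p q ||
    andB (Nat.beq (dg (XR (tv (fl x p / 4))) (fl x q / 4)) 64)
      (Nat.beq (dg (XR (tv (Nat.add (fl x p / 4) 4060))) (fl x q / 4)) 64)) 0 28) 0 28))

noncomputable def tChk (x k : ℕ) : Bool := frcB (fun n => andB (Nat.blt (Nat.shiftRight n 2) 4060)
  (Nat.beq (Nat.mod (lin N5 (nthW zs x) (tv k)) N5)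
    (Nat.mod (Nat.mul 4 (zu (Nat.shiftRight n 2) (Nat.land n 3))) N5))) (im2 x k)

end Cfsg.H7.Ru
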