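import Cfsg.Agent.H7.RuC

/-! Checkers for the enumeration of the minimal vectors. -/

set_option autoImplicit false
set_option maxRecDepth 100000

open Finset

namespace Cfsg.H7.Ru

open H6 Spor

def Sp : List ℕ → ℕ → Prop
  | [], w => w = 0
  | b :: B, w => Sp B w ∨ Sp B (Nat.xor w b)

theorem Sp.xor : ∀ {B : List ℕ} {u v : ℕ}, Sp B u → Sp B v → Sp B (Nat.xor u v)
  | [], _, _, rfl, rfl => rfl
  | b :: B, u, v, h, h' => by
    have e : ∀ x y : ℕ, Nat.xor x y = x ^^^ y := fun _ _ => rfl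
    rcases h with h | h <;> rcases h' with h' | h'
    · exact Or.inl (h.xor h')
    · exact Or.inr (by simpa only [e, Nat.xor_assoc] using h.xor h')
    · exact Or.inr (by simpa only [e, Nat.xor_assoc, Nat.xor_comm b] using h.xor h')
    · have := h.xor h'
      rw [e, e, e, Nat.xor_comm v, Nat.xor_assoc, Nat.xor_xor_cancel_left] at this
      exact Or.inl this

noncomputable def spChk (B : List ℕ) : ℕ → Bool := @List.rec _ (fun _ => ℕ → Bool)
  (fun w => Nat.beq w (nat_lit 0)) (fun b _ ih w => ih (sel w (Nat.xor w b) (Nat.xor w b) w)) B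

theorem spChk_sound : ∀ {B : List ℕ} {w : ℕ}, spChk B w = true → Sp B w
  | [], _, h => Nat.eq_of_beq_eq_true h
  | b :: B, w, h => by
    have := spChk_sound (show spChk B (sel w (Nat.xor w b) (Nat.xor w b) w) = true from h)
    unfold sel at this
    cases e : Nat.ble w (Nat.xor w b) <;> rw [e] at this
    exacts [Or.inr this, Or.inl this]

noncomputable def go1 (f : ℕ → Bool) (B : List ℕ) : ℕ → Bool := @List.rec _ (fun _ => ℕ → Bool)
  f (fun b _ ih a => andB (ih a) (ih (Nat.xor a b))) B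

theorem go1_sound {f : ℕ → Bool} : ∀ {B : List ℕ} {a w : ℕ}, go1 f B a = true → Sp B w →
    f (Nat.xor a w) = true
  | [], a, _, h, rfl => (congrArg f (Nat.xor_zero a)).trans h
  | b :: B, a, w, h, s => by
    have := andB_eq_true.1 (show andB (go1 f B a) (go1 f B (Nat.xor a b)) = true from h)
    rcases s with s | s
    · exact go1_sound this.1 s
    · have e : ∀ x y : ℕ, Nat.xor x y = x ^^^ y := fun _ _ => rfl
      simpa only [e, Nat.xor_assoc, Nat.xor_comm w, Nat.xor_xor_cancel_left] using go1_sound this.2 s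

/-- the odd coordinates -/
def Par (x : RuVec) (w : ℕ) : Prop := ∀ j < 56, (rc j x % 2 = 1 ↔ mem w j)

theorem par_sv (m : ℕ) : Par (sv m) (tv m) := fun j hj => by
  rw [sv, rc_ofR _ hj, co, mem_iff_dg]; omega

theorem Par.land {x : RuVec} {w : ℕ} (h : Par x w) : Par x (Nat.land w O5) := fun j hj => by
  rw [h j hj, mem_land, and_iff_left (show mem O5 j from mem_one hj)]

theorem sv_mem' {m : ℕ} (h : m < 8120) : sv m ∈ ruLattice ∧ ruNorm (sv m) = 16 ∧
    ∃ k < 4060, ∃ e, sv m = gI ^ e • sv k := by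
  by_cases a : m < 4060
  · exact ⟨sv_mem a, nv a, m, a, 0, by simp⟩
  obtain ⟨k, rfl⟩ : ∃ k, m = k + 4060 := ⟨m - 4060, by omega⟩
  rw [sv_i (by omega), ← pow_one gI]
  exact ⟨pow_mem_L _ (sv_mem (by omega)), by rw [norm_pow, nv (by omega)], k, by omega, 1, rfl⟩

theorem exists_par {B : List ℕ} (h : ∀ m < 8120, spChk B (Nat.land (tv m) O5) = true) {x : RuVec}
    (hx : x ∈ ruLattice) : ∃ w, Sp B w ∧ Par x w := by
  have ng : ∀ {x w}, Par x w → Par (-x) w := fun h j hj => by rw [← h j hj, map_neg]; omega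
  refine L_le (K := ⟨⟨⟨{x | ∃ w, Sp B w ∧ Par x w}, fun ⟨u, a, b⟩ ⟨v, c, d⟩ => ⟨_, a.xor c,
    fun j hj => ?_⟩⟩, _, (spChk_sound (h 0 (by omega))).xor (spChk_sound (h 0 (by omega))),
    fun j _ => by simp [-Nat.xor_eq, mem_xor]⟩, fun ⟨u, a, b⟩ => ⟨u, a, ng b⟩⟩) (fun e k hk => ?_) hx
  · rw [mem_xor, ← b j hj, ← d j hj, map_add]; omega
  have a := spChk_sound (h k (by omega))
  have b := spChk_sound (h (k + 4060) (by omega))
  have : e % 4 < 4 := Nat.mod_lt _ (by norm_num)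
  rw [gI_pow]
  interval_cases e % 4
  · exact ⟨_, a, by simpa using (par_sv k).land⟩
  · exact ⟨_, b, by simpa [sv_i hk] using (par_sv (k + 4060)).land⟩
  · exact ⟨_, a, by simpa [show gI ^ 2 = -1 from rfl] using ng (par_sv k).land⟩
  · exact ⟨_, b, by simpa [show gI ^ 3 = -gI from rfl, sv_i hk] using ng (par_sv (k + 4060)).land⟩

theorem ct56 (r : ℕ) : ct 56 r = #{j ∈ range 56 | mem r j} := by
  rw [ct_eq, Nat.mod_eq_of_lt ((card_filter_le _ _).trans_lt (by simp))]

theorem wt_le {x : RuVec} {r : ℕ} (h : Par x r) :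
    (ct 56 r + 4 * #{j ∈ range 56 | rc j x % 4 = 2} : ℤ) ≤ ruNorm x := by
  rw [ct56, card_filter, card_filter, norm_eq, hm_re]
  push_cast
  rw [mul_sum, ← sum_add_distrib]
  refine sum_le_sum fun j hj => ?_
  simp only [← h j (mem_range.1 hj)]
  generalize rc j x = a
  rcases (by omega : a = 0 ∨ a = 1 ∨ a = -1 ∨ 2 ≤ a ∨ a ≤ -2) with h | h | h | h | h
  · simp [h]
  · simp [h]
  · simp [h]
  · split_ifs <;> first | omega | nlinarith
  · split_ifs <;> first | omega | nlinarith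

/-! ### Words that carry no minimal vector -/

noncomputable def gc (G : List ℕ) (j : ℕ) : ℕ :=
  @List.rec _ (fun _ => ℕ) (nat_lit 0) (fun m _ acc => Nat.add (dg (tv m) j) acc) G

theorem gc_eq (G : List ℕ) (h : ∀ m ∈ G, m < 8120) : ∃ g ∈ ruLattice, ∃ c : ℤ,
    ∀ j < 56, rc j g = gc G j - 4 * c := by
  induction G with
  | nil => exact ⟨0, zero_mem _, 0, fun _ _ => map_zero _⟩
  | cons m G ih =>
    obtain ⟨g, a, c, b⟩ := ih fun x i => h x (List.mem_cons_of_mem _ i)
    refine ⟨_, add_mem (sv_mem' (h m List.mem_cons_self)).1 a, c + 1, fun j hj => ?_⟩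
    rw [map_add, b j hj, sv, rc_ofR _ hj, co, show gc (m :: G) j = dg (tv m) j + gc G j from rfl]
    push_cast; ring

noncomputable def hs (G : List ℕ) (r n : ℕ) : ℕ := @Nat.rec (fun _ => ℕ) (nat_lit 0)
  (fun j acc => @Bool.rec (fun _ => ℕ) acc (Nat.add (Nat.div (gc G j) (nat_lit 2)) acc) (mb r j)) n

theorem hs_eq (G : List ℕ) (r n : ℕ) :
    hs G r n = ∑ j ∈ range n, if mem r j then gc G j / 2 else 0 := by
  induction n with
  | zero => rfl
  | succ n ih =>
    rw [sum_range_succ, ← ih, add_comm (hs G r n)]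
    show @Bool.rec (fun _ => ℕ) (hs G r n) (gc G n / 2 + hs G r n) (mb r n) = _
    simp only [← mb_iff]
    cases mb r n <;> simp

noncomputable def sgm (Gs : List (List ℕ)) (j : ℕ) : ℕ := @List.rec _ (fun _ => ℕ) (nat_lit 0)
  (fun G _ acc => Nat.add (Nat.mul (nat_lit 2) acc) (Nat.mod (gc G j) (nat_lit 2))) Gs

noncomputable def tau (Gs : List (List ℕ)) (r : ℕ) : ℕ := @List.rec _ (fun _ => ℕ) (nat_lit 0)
  (fun G _ acc => Nat.add (Nat.mul (nat_lit 2) acc) (Nat.mod (hs G r (nat_lit 56)) (nat_lit 2))) Gs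

def syn (σ : ℕ → ℕ) (Y : ℕ → Prop) [DecidablePred Y] : ℕ → ℕ
  | 0 => 0
  | n + 1 => if Y n then syn σ Y n ^^^ σ n else syn σ Y n

theorem xor_bit (a b c d : ℕ) : (2 * a + b % 2) ^^^ (2 * c + d % 2) = 2 * (a ^^^ c) + (b + d) % 2 := by
  have h1 := Nat.xor_div_two (a := 2 * a + b % 2) (b := 2 * c + d % 2)
  have h2 := Nat.xor_mod_two_eq (m := 2 * a + b % 2) (n := 2 * c + d % 2)
  rw [show (2 * a + b % 2) / 2 = a by omega, show (2 * c + d % 2) / 2 = c by omega] at h1
  omega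

theorem syn_cons (σ g : ℕ → ℕ) (Y : ℕ → Prop) [DecidablePred Y] (n : ℕ) :
    syn (fun j => 2 * σ j + g j % 2) Y n =
      2 * syn σ Y n + (∑ j ∈ range n, if Y j then g j else 0) % 2 := by
  induction n with
  | zero => rfl
  | succ n ih =>
    rw [syn, syn, sum_range_succ, ih]
    split_ifs
    · exact xor_bit _ _ _ _
    · rfl

theorem ar1 (a c : ℤ) (n : ℕ) (h : a % 2 = 1 → n % 2 = 0) : 4 ∣ a * (n - 4 * c) -
    2 * ((if a % 4 = 2 then n else 0 : ℕ) + (if a % 2 = 1 then n / 2 else 0 : ℕ)) := by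
  obtain ⟨q, s, rfl, h0, h4⟩ : ∃ q s, a = 4 * q + s ∧ 0 ≤ s ∧ s < 4 :=
    ⟨a / 4, a % 4, by omega, by omega, by omega⟩
  rw [show (4 * q + s) * (n - 4 * c) = 4 * (q * (n - 4 * c) - s * c) + s * n by ring]
  generalize q * (n - 4 * c) - s * c = t
  interval_cases s <;> split_ifs <;> omega

theorem syn_tau {x : RuVec} {r : ℕ} (hx : x ∈ ruLattice) (hr : Par x r) (Gs : List (List ℕ))
    (h : ∀ G ∈ Gs, (∀ m ∈ G, m < 8120) ∧ ∀ j < 56, mem r j → gc G j % 2 = 0) :
    syn (sgm Gs) (fun j => rc j x % 4 = 2) 56 = tau Gs r := by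
  induction Gs with
  | nil =>
    show syn (fun _ => 0) _ 56 = 0
    generalize 56 = n
    induction n with
    | zero => rfl
    | succ n ih => simp [syn, ih]
  | cons G Gs ih =>
    obtain ⟨h1, h2⟩ := h G List.mem_cons_self
    refine (syn_cons (sgm Gs) (gc G) _ 56).trans ?_
    rw [ih fun G i => h G (List.mem_cons_of_mem _ i)]
    show _ = 2 * tau Gs r + hs G r 56 % 2
    obtain ⟨g, a, c, b⟩ := gc_eq G h1
    have d := int_L hx a
    have e : (4 : ℤ) ∣ ∑ j ∈ range 56, (rc j x * rc j g - 2 * ((if rc j x % 4 = 2 then gc G j else 0 : ℕ)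
        + (if mem r j then gc G j / 2 else 0 : ℕ))) := dvd_sum fun j hj => by
      have := h2 j (mem_range.1 hj)
      rw [b j (mem_range.1 hj)]
      simp only [← hr j (mem_range.1 hj)] at this ⊢
      exact ar1 _ _ _ this
    rw [sum_sub_distrib, ← hm_re, ← mul_sum, sum_add_distrib, ← Nat.cast_sum, ← Nat.cast_sum,
      ← hs_eq] at e
    omega

noncomputable def sub (σ : ℕ → ℕ) (n : ℕ) : ℕ → ℕ → Bool := @Nat.rec (fun _ => ℕ → ℕ → Bool)
  (fun _ _ => true) (fun n ih k a => @Nat.rec (fun _ => Bool) true (fun k' _ => andB (ih k a)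
    (andB (Nat.blt (nat_lit 0) (Nat.xor a (σ n))) (ih k' (Nat.xor a (σ n))))) k) n

theorem syn_zero {σ : ℕ → ℕ} {Y : ℕ → Prop} [DecidablePred Y] {n : ℕ} (h : ∀ j < n, ¬ Y j) :
    syn σ Y n = 0 := by
  induction n with
  | zero => rfl
  | succ n ih => rw [syn, if_neg (h n (by omega)), ih fun j hj => h j (by omega)]

theorem sub_sound {σ : ℕ → ℕ} {Y : ℕ → Prop} [DecidablePred Y] (n : ℕ) : ∀ k a,
    sub σ n k a = true → #{j ∈ range n | Y j} ≤ k → syn σ Y n = a → ∀ j < n, ¬ Y j := by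
  induction n with
  | zero => intro _ _ _ _ _ j h; omega
  | succ n ih =>
    intro k a h c e
    cases k with
    | zero =>
      exact fun j hj y => by
        exact absurd (card_pos.2 ⟨j, mem_filter.2 ⟨mem_range.2 hj, y⟩⟩) (not_lt.2 c)
    | succ k =>
      obtain ⟨h1, h2, h3⟩ : sub σ n (k + 1) a = true ∧ 0 < a ^^^ σ n ∧
          sub σ n k (a ^^^ σ n) = true := by
        have := andB_eq_true.1 (show andB _ (andB _ _) = true from h)
        exact ⟨this.1, Nat.blt_eq.mp (andB_eq_true.1 this.2).1, (andB_eq_true.1 this.2).2⟩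
      rw [range_add_one, filter_insert] at c
      rw [syn] at e
      split_ifs at c e with y
      · rw [card_insert_of_notMem (by simp)] at c
        have e' : syn σ Y n = a ^^^ σ n := by rw [← e, Nat.xor_xor_cancel_right]
        rw [← e', syn_zero (ih k _ h3 (by omega) e')] at h2
        omega
      · exact fun j hj => (Nat.lt_succ_iff_lt_or_eq.1 hj).elim (ih _ _ h1 c e j) fun i => i ▸ y

/-- the vector is listed -/
def Gd (x : RuVec) : Prop := ∃ k < 4060, ∃ e, x = gI ^ e • sv k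

theorem Gd.neg {x : RuVec} (h : Gd x) : Gd (-x) := by
  obtain ⟨k, a, e, rfl⟩ := h
  exact ⟨k, a, 2 + e, by simp [pow_add, mul_smul, show gI ^ 2 = -1 from rfl]⟩

theorem kfr : ∀ j < 56, nthN frL (j / 2) < 4060 ∧ ∀ i < 56,
    co (tv (nthN frL (j / 2) + 4060 * (j % 2))) i = if i = j then 4 else 0 := by decide +kernel

theorem gd_frame {x : RuVec} (hn : ruNorm x = 16) (h : ∀ j < 56, 4 ∣ rc j x) : Gd x := by
  have s := hn
  rw [norm_eq, hm_re] at s
  obtain ⟨j, hj, a⟩ := exists_ne_zero_of_sum_ne_zero (s.trans_ne (by norm_num))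
  have hj' := mem_range.1 hj
  have b := abs_le_of (b := 4) (hn ▸ sq_le x hj') (by norm_num)
  have c := h j hj'
  have d : rc j x = 4 ∨ rc j x = -4 := by have := mul_self_ne_zero.1 a; omega
  rw [← add_sum_erase _ _ hj, show rc j x * rc j x = 16 by rcases d with d | d <;> simp [d],
    add_eq_left, sum_eq_zero_iff_of_nonneg fun _ _ => mul_self_nonneg _] at s
  have g := (sv_mem' (m := nthN frL (j / 2) + 4060 * (j % 2)) (by have := (kfr j hj').1; omega)).2.2
  have k : ∀ y : RuVec, rc j y = 4 → (∀ i ∈ (range 56).erase j, rc i y = 0) → Gd y := fun y p q =>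
    (ext_rc fun i hi => by
      rw [sv, rc_ofR _ hi, (kfr j hj').2 i hi]
      split_ifs with e
      exacts [e ▸ p, q i (mem_erase.2 ⟨e, mem_range.2 hi⟩)] : y = sv _) ▸ g
  rcases d with d | d
  · exact k x d fun i hi => mul_self_eq_zero.1 (s i hi)
  · simpa using (k (-x) (by simp [d]) fun i hi => by simp [mul_self_eq_zero.1 (s i hi)]).neg

abbrev Ent : Type := ℕ × ℕ × List (List ℕ) × List ℕ × List ℕ

noncomputable def chkE (e : Ent) : Bool := Nat.blt 16 (ct 56 e.1 + 4 * (e.2.1 + 1)) &&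
  (e.2.2.1.all fun G => ltB 8120 G && allR (fun j => !mb e.1 j || Nat.beq (gc G j % 2) 0) 0 56) &&
  (Nat.blt 0 (tau e.2.2.1 e.1) || Nat.beq e.1 0) && sub (sgm e.2.2.1) 56 e.2.1 (tau e.2.2.1 e.1)

theorem chkE_sound {e : Ent} (h : chkE e = true) {x : RuVec} (hx : x ∈ ruLattice)
    (hn : ruNorm x = 16) (hr : Par x e.1) : Gd x := by
  simp only [chkE, Bool.and_eq_true, List.all_eq_true, Nat.blt_eq, Bool.or_eq_true, Nat.beq_eq] at h
  obtain ⟨⟨⟨h1, h2⟩, h3⟩, h4⟩ := h
  have t := syn_tau hx hr _ fun G i => ⟨ltB_spec (h2 G i).1, fun j hj m => by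
    simpa [mb_iff.2 m] using allR_spec (h2 G i).2 j (Nat.zero_le _) (by omega)⟩
  have y := sub_sound 56 _ _ h4 (by have := wt_le hr; omega) t
  rw [syn_zero y] at t
  refine gd_frame hn fun j hj => ?_
  have a := y j hj
  have b := (hr j hj).not.2 ((h3.resolve_left (by omega)).symm ▸ not_mem_zero j)
  omega

/-! ### Words that carry minimal vectors -/

theorem shape {x : RuVec} {r : ℕ} (hn : ruNorm x = 16) (hr : Par x r) (c : ct 56 r = 16) :
    ∀ j < 56, (mem r j ↔ rc j x ≠ 0) ∧ (rc j x = 0 ∨ rc j x = 1 ∨ rc j x = -1) := by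
  have l : ∀ j ∈ range 56, (if mem r j then 1 else 0 : ℤ) ≤ rc j x * rc j x := fun j hj => by
    simp only [← hr j (mem_range.1 hj)]
    split_ifs with h
    · exact (mul_self_pos.2 (show rc j x ≠ 0 by omega) :)
    · exact mul_self_nonneg _
  have := (sum_eq_sum_iff_of_le l).1 (by
    rw [← hm_re, ← norm_eq, hn, sum_boole, ← ct56, c]; rfl)
  intro j hj
  have := this j (mem_range.2 hj)
  split_ifs at this with h
  · have := mul_self_eq_one_iff.1 this.symm
    exact ⟨iff_of_true h (by omega), Or.inr this⟩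
  · have := mul_self_eq_zero.1 this.symm
    exact ⟨iff_of_false h (by omega), Or.inl this⟩

noncomputable def sn (n : ℕ) : RuVec := if n < 8120 then sv n else -sv (n - 8120)

noncomputable def ps (j n : ℕ) : Bool := @Bool.rec (fun _ => Bool) (Nat.blt (dg (tv (n - 8120)) j) 4)
  (Nat.blt 4 (dg (tv n) j)) (Nat.blt n 8120)

theorem ps_iff {j : ℕ} (hj : j < 56) (n : ℕ) : ps j n = true ↔ 0 < rc j (sn n) := by
  unfold ps sn
  cases e : Nat.blt n 8120
  · rw [if_neg (by simpa [← Nat.blt_eq] using e), map_neg, sv, rc_ofR _ hj, co]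
    simp only [Nat.blt_eq]; omega
  · rw [if_pos (Nat.blt_eq.mp e), sv, rc_ofR _ hj, co]
    simp only [Nat.blt_eq]; omega

noncomputable def cov (I : List ℕ) : List ℕ → Bool := @List.rec _ (fun _ => List ℕ → Bool)
  (fun L => !L.isEmpty) (fun j _ ih L => ih (L.filter (ps j)) && ih (L.filter fun n => !ps j n)) I

theorem cov_sound (P : ℕ → Prop) : ∀ (I L : List ℕ), cov I L = true →
    ∃ n ∈ L, ∀ j ∈ I, (P j ↔ ps j n = true)
  | [], L, h => by
    obtain ⟨n, hn⟩ := List.exists_mem_of_ne_nil L (by simpa [cov] using h)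
    exact ⟨n, hn, by simp⟩
  | j :: I, L, h => by
    have := Bool.and_eq_true_iff.1 (show (cov I _ && cov I _) = true from h)
    by_cases p : P j
    · obtain ⟨n, a, b⟩ := cov_sound P I _ this.1
      exact ⟨n, (List.mem_filter.1 a).1, List.forall_mem_cons.2
        ⟨iff_of_true p (List.mem_filter.1 a).2, b⟩⟩
    · obtain ⟨n, a, b⟩ := cov_sound P I _ this.2
      exact ⟨n, (List.mem_filter.1 a).1, List.forall_mem_cons.2
        ⟨iff_of_false p (by simpa using (List.mem_filter.1 a).2), b⟩⟩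

/-- at most one point -/
noncomputable def sgl (t : ℕ) : Bool := Nat.beq t (Nat.pow (nat_lit 2) (Nat.log2 t))

theorem sgl_eq {t a b : ℕ} (h : sgl t = true) (ha : mem t a) (hb : mem t b) : a = b := by
  rw [Nat.eq_of_beq_eq_true h] at ha hb
  have a := of_decide_eq_true ((Nat.testBit_two_pow ..).symm.trans ha)
  have b := of_decide_eq_true ((Nat.testBit_two_pow ..).symm.trans hb)
  omega

noncomputable def elim (E : List ℕ) : ℕ → Bool := @List.rec _ (fun _ => ℕ → Bool)
  (fun U => Nat.beq U 0) (fun m _ ih U => Nat.blt m 8120 && sgl (Nat.land U (tv m)) &&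
    ih (df U (tv m))) E

theorem elim_sound {d : RuVec} (hd : d ∈ ruLattice) (h2 : ∀ j < 56, rc j d = 0 ∨ rc j d % 4 = 2) :
    ∀ (E : List ℕ) (U : ℕ), elim E U = true → (∀ j < 56, rc j d ≠ 0 → mem U j) → d = 0
  | [], U, h, a => ext_rc fun j hj => by
    by_contra c
    exact not_mem_zero j (Nat.eq_of_beq_eq_true h ▸ a j hj (by simpa using c))
  | m :: E, U, h, a => by
    obtain ⟨⟨h3, h4⟩, h5⟩ : (m < 8120 ∧ sgl (Nat.land U (tv m)) = true) ∧
        elim E (df U (tv m)) = true := by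
      simpa only [Bool.and_eq_true, Nat.blt_eq] using
        show (Nat.blt m 8120 && sgl (Nat.land U (tv m)) && elim E (df U (tv m))) = true from h
    refine elim_sound hd h2 E _ h5 fun j hj n => mem_df.2 ⟨a j hj n, fun o => ?_⟩
    have v := int_L hd (sv_mem' h3).1
    have k : ∀ a b : ℤ, a % 4 = 2 → (4 ∣ a * b ↔ ¬ b % 2 = 1) := fun a b h => by
      rw [show a * b = 4 * (a / 4 * b) + 2 * b by rw [← mul_assoc, ← add_mul]; congr 1; omega]
      omega
    rw [hm_re, ← add_sum_erase _ _ (mem_range.2 hj), dvd_add_left (dvd_sum fun i hi => ?_),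
      k _ _ ((h2 j hj).resolve_left n)] at v
    · exact v ((par_sv m j hj).2 o)
    have hi' := mem_range.1 (mem_erase.1 hi).2
    by_cases z : rc i d = 0
    · simp [z]
    · exact (k _ _ ((h2 i hi').resolve_left z)).2 fun o' => (mem_erase.1 hi).1 (sgl_eq h4
        (mem_land.2 ⟨a i hi' z, (par_sv m i hi').1 o'⟩) (mem_land.2 ⟨a j hj n, o⟩))

noncomputable def mkS (I : List ℕ) : ℕ :=
  @List.rec _ (fun _ => ℕ) (nat_lit 0) (fun j _ acc => Nat.lor (sg j) acc) I

theorem mem_mkS {I : List ℕ} {j : ℕ} : mem (mkS I) j ↔ j ∈ I := by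
  induction I with
  | nil => exact iff_of_false (not_mem_zero j) (by simp)
  | cons i I ih => exact mem_lor.trans ((or_congr mem_sg ih).trans List.mem_cons.symm)

noncomputable def chkN (e : Ent) : Bool := Nat.beq (ct 56 e.1) 16 && ((e.2.2.1.getD 0 []).all fun n =>
  Nat.blt n 16240 && Nat.beq (Nat.land (tv (n % 8120)) O5) e.1) && cov e.2.2.2.1 (e.2.2.1.getD 0 []) &&
  elim e.2.2.2.2 (df e.1 (mkS e.2.2.2.1))

theorem chkN_sound {e : Ent} (h : chkN e = true) {x : RuVec} (hx : x ∈ ruLattice)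
    (hn : ruNorm x = 16) (hr : Par x e.1) : Gd x := by
  simp only [chkN, Bool.and_eq_true, List.all_eq_true, Nat.blt_eq, Nat.beq_eq] at h
  obtain ⟨⟨⟨h1, h2⟩, h3⟩, h4⟩ := h
  obtain ⟨n, a, b⟩ := cov_sound (fun j => 0 < rc j x) _ _ h3
  obtain ⟨c1, c2, c3⟩ := sv_mem' (Nat.mod_lt n (by norm_num : 0 < 8120))
  have c4 := (h2 n a).2 ▸ (par_sv (n % 8120)).land
  obtain ⟨s1, s2, s3⟩ : sn n ∈ ruLattice ∧ Gd (sn n) ∧ ∀ j < 56, (mem e.1 j ↔ rc j (sn n) ≠ 0) ∧
      (rc j (sn n) = 0 ∨ rc j (sn n) = 1 ∨ rc j (sn n) = -1) := by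
    have := shape c2 c4 h1
    have l := (h2 n a).1
    unfold sn
    split_ifs with i
    · rw [Nat.mod_eq_of_lt i] at *; exact ⟨c1, c3, this⟩
    · rw [show n - 8120 = n % 8120 by omega]
      exact ⟨neg_mem c1, Gd.neg c3, fun j hj => by
        rw [map_neg, neg_ne_zero]; exact ⟨(this j hj).1, by have := (this j hj).2; omega⟩⟩
  have t := shape hn hr h1
  refine sub_eq_zero.1 (elim_sound (sub_mem hx s1) (fun j hj => ?_) _ _ h4 fun j hj z => ?_) ▸ s2
  all_goals
    have := (t j hj).1.symm.trans (s3 j hj).1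
    have := (t j hj).2
    have := (s3 j hj).2
  · rw [map_sub]; omega
  · rw [map_sub] at z
    refine mem_df.2 ⟨(t j hj).1.2 (by omega), fun i => ?_⟩
    have := (b j (mem_mkS.1 i)).trans (ps_iff hj n)
    omega

noncomputable def eChk (e : Ent) : Bool := @Bool.rec (fun _ => Bool) (chkE e) (chkN e) (Nat.beq e.2.1 99)

noncomputable def leaf (BK : List (List Ent)) (a : ℕ) : Bool := @Bool.rec (fun _ => Bool)
  ((BK.getD (a % 61) []).any fun e => Nat.beq e.1 a) true (Nat.ble (nat_lit 17) (ct (nat_lit 56) a))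

theorem gd_of {B : List ℕ} {BK : List (List Ent)}
    (h1 : ∀ m < 8120, spChk B (Nat.land (tv m) O5) = true) (h2 : go1 (leaf BK) B 0 = true)
    (h3 : ∀ i < 61, (BK.getD i []).all eChk = true) {x : RuVec} (hx : x ∈ ruLattice)
    (hn : ruNorm x = 16) : Gd x := by
  obtain ⟨w, a, b⟩ := exists_par h1 hx
  have c := go1_sound h2 a
  rw [show Nat.xor 0 w = w from Nat.zero_xor w, leaf, show Nat.ble 17 (ct 56 w) = false from
    Bool.eq_false_iff.2 fun i => by have := Nat.le_of_ble_eq_true i; have := wt_le b; omega] at c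
  obtain ⟨e, d, f⟩ := List.any_eq_true.1 c
  have g := List.all_eq_true.1 (h3 _ (Nat.mod_lt w (by norm_num))) e d
  rw [← Nat.eq_of_beq_eq_true f] at b
  unfold eChk at g
  cases i : Nat.beq e.2.1 99 <;> rw [i] at g
  exacts [chkE_sound g hx hn b, chkN_sound g hx hn b]

end Cfsg.H7.Ru
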