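import Cfsg.Agent.H7.RuE0

/-! The enumeration of the minimal vectors. -/

set_option autoImplicit false
set_option maxRecDepth 100000

namespace Cfsg.H7.Ru

open H6 Spor

theorem go1_cons {f : ℕ → Bool} {b a : ℕ} {B : List ℕ} (h : go1 f B a = true)
    (h' : go1 f B (Nat.xor a b) = true) : go1 f (b :: B) a = true := andB_eq_true.2 ⟨h, h'⟩

theorem kg0 : go1 (leaf BK) BT 0 = true := by decide +kernel

theorem kg1 : go1 (leaf BK) BT (Nat.xor 0 b3) = true := by decide +kernel

theorem kg2 : go1 (leaf BK) BT (Nat.xor 0 b2) = true := by decide +kernel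

theorem kg3 : go1 (leaf BK) BT (Nat.xor (Nat.xor 0 b2) b3) = true := by decide +kernel

theorem kg4 : go1 (leaf BK) BT (Nat.xor 0 b1) = true := by decide +kernel

theorem kg5 : go1 (leaf BK) BT (Nat.xor (Nat.xor 0 b1) b3) = true := by decide +kernel

theorem kg6 : go1 (leaf BK) BT (Nat.xor (Nat.xor 0 b1) b2) = true := by decide +kernel

theorem kg7 : go1 (leaf BK) BT (Nat.xor (Nat.xor (Nat.xor 0 b1) b2) b3) = true := by decide +kernel

theorem kg8 : go1 (leaf BK) BT (Nat.xor 0 b0) = true := by decide +kernel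

theorem kg9 : go1 (leaf BK) BT (Nat.xor (Nat.xor 0 b0) b3) = true := by decide +kernel

theorem kg10 : go1 (leaf BK) BT (Nat.xor (Nat.xor 0 b0) b2) = true := by decide +kernel

theorem kg11 : go1 (leaf BK) BT (Nat.xor (Nat.xor (Nat.xor 0 b0) b2) b3) = true := by decide +kernel

theorem kg12 : go1 (leaf BK) BT (Nat.xor (Nat.xor 0 b0) b1) = true := by decide +kernel

theorem kg13 : go1 (leaf BK) BT (Nat.xor (Nat.xor (Nat.xor 0 b0) b1) b3) = true := by decide +kernel

theorem kg14 : go1 (leaf BK) BT (Nat.xor (Nat.xor (Nat.xor 0 b0) b1) b2) = true := by decide +kernel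

theorem kg15 : go1 (leaf BK) BT (Nat.xor (Nat.xor (Nat.xor (Nat.xor 0 b0) b1) b2) b3) = true := by decide +kernel

theorem kg : go1 (leaf BK) BS 0 = true := go1_cons (go1_cons (go1_cons (go1_cons kg0 kg1) (go1_cons kg2 kg3)) (go1_cons (go1_cons kg4 kg5) (go1_cons kg6 kg7))) (go1_cons (go1_cons (go1_cons kg8 kg9) (go1_cons kg10 kg11)) (go1_cons (go1_cons kg12 kg13) (go1_cons kg14 kg15)))

end Cfsg.H7.Ru
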