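import Cfsg.Agent.H7.RuC
import Cfsg.Agent.H7.RuE1
import Cfsg.Agent.H7.RuE2

/-! The action of the lattice automorphism group on the graph with 4060 vertices. -/

set_option autoImplicit false
set_option maxRecDepth 100000
set_option exponentiation.threshold 5000

open Finset MulAction

namespace Cfsg.H7.Ru

open H6 Spor R3

abbrev V : Type := Fin 4060

def adj (u k : V) : Prop := u ≠ k ∧ Q (sv u) (sv k)

noncomputable instance decAdj : DecidableRel adj := fun _ _ => Classical.dec _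

theorem adj_iff (u k : V) : adj u k ↔ mem (row u) k := by
  rw [mem_row u.2 k.2, adj, ne_eq, Fin.ext_iff]

theorem adj_symm (u k : V) (h : adj u k) : adj k u := ⟨h.1.symm, Q_symm h.2⟩

theorem adj_irr (u : V) : ¬ adj u u := fun h => h.1 rfl

noncomputable def lv (k : V) : ruLattice := ⟨sv k, sv_mem k.2⟩

theorem f_pow (f : fourRu) (e : ℕ) (v : ruLattice) :
    (f.1 ⟨gI ^ e • v.1, pow_mem_L e v.2⟩).1 = gI ^ e • (f.1 v).1 := by
  induction e with
  | zero => simp
  | succ e ih =>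
    have := congrArg Subtype.val (f.2.2.1 ⟨gI ^ e • v.1, pow_mem_L e v.2⟩)
    simp only [pow_succ', mul_smul, ← ih]
    exact this

theorem ex_act (f : fourRu) (k : V) : ∃ k' : V, ∃ e, (f.1 (lv k)).1 = gI ^ e • sv k' := by
  obtain ⟨k', h, e, q⟩ := gd_of ks kg ke (f.1 (lv k)).2 ((f.2.2.2 _).trans (nv k.2))
  exact ⟨⟨k', h⟩, e, q⟩

theorem act_eq {f : fourRu} {k k' : V} {e : ℕ} (h : (f.1 (lv k)).1 = gI ^ e • sv k') :
    (ex_act f k).choose = k' := by
  obtain ⟨e', q⟩ := (ex_act f k).choose_spec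
  refine Fin.ext (dist k'.2 (Fin.is_lt _) (e := 3 * e + e') ?_)
  rw [pow_add, mul_smul, ← q, h, pow_cancel]

noncomputable instance actRu : MulAction fourRu V where
  smul f k := (ex_act f k).choose
  one_smul k := act_eq (e := 0) (by simp [lv])
  mul_smul f g k := by
    obtain ⟨e, q⟩ := (ex_act g k).choose_spec
    obtain ⟨e', q'⟩ := (ex_act f (ex_act g k).choose).choose_spec
    refine act_eq (e := e + e') ?_
    rw [pow_add, mul_smul]
    exact (congrArg (fun x => (f.1 x).1) (Subtype.ext q)).trans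
      ((f_pow f e (lv _)).trans (congrArg _ q'))

theorem act_spec (f : fourRu) (k : V) : ∃ e, (f.1 (lv k)).1 = gI ^ e • sv (f • k : V) :=
  (ex_act f k).choose_spec

theorem hm_f (f : fourRu) (x y : ruLattice) : hm (f.1 x).1 (f.1 y).1 = hm x.1 y.1 := by
  have p : ∀ x y : RuVec, ruNorm (x + y) = ruNorm x + ruNorm y + 2 * (hm x y).re := fun x y => by
    simp only [norm_eq, hm_add_l, hm_add_r, hm_star x y, Zsqrtd.re_add, Zsqrtd.re_star]; ring
  have r : ∀ x y : ruLattice, (hm (f.1 x).1 (f.1 y).1).re = (hm x.1 y.1).re := fun x y => by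
    have := f.2.2.2 (x + y)
    rw [f.2.1, AddSubgroup.coe_add, AddSubgroup.coe_add, p, p, f.2.2.2, f.2.2.2] at this
    omega
  ext
  · exact r x y
  · rw [hm_im, hm_im]
    exact (congrArg (fun z : ruLattice => (hm z.1 (f.1 y).1).re) (f.2.2.1 x)).symm.trans (r (ruI x) y)

theorem adj_act (f : fourRu) (u k : V) : adj (f • u) (f • k) ↔ adj u k := by
  obtain ⟨a, ha⟩ := act_spec f u
  obtain ⟨b, hb⟩ := act_spec f k
  rw [adj, adj, ← Q_smul a b, ← ha, ← hb, Q, hm_f, ne_eq, smul_left_cancel_iff]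
  rfl

abbrev A : Type := Aut adj

noncomputable def ρ : fourRu →* A := (toPermHom fourRu V).codRestrict _ adj_act

theorem unit_eq {f : fourRu} (h : ∀ k : V, f • k = k) {u k : V} {a : ℕ} (n : u = k ∨ ¬ adj u k)
    (ha : (f.1 (lv u)).1 = gI ^ a • sv u) : (f.1 (lv k)).1 = gI ^ a • sv k := by
  by_cases e : u = k
  · exact e ▸ ha
  obtain ⟨b, hb⟩ := act_spec f k
  rw [h] at hb
  have q := hm_f f (lv u) (lv k)
  rw [ha, hb, hm_smul] at q
  have z : hm (sv u) (sv k) ≠ 0 := fun z => n.resolve_left e ⟨e, by simp [Q, z]⟩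
  have q' : star (gI ^ a) * gI ^ b = 1 := mul_right_cancel₀ z (q.trans (one_mul _).symm)
  have : gI ^ a * star (gI ^ a) = 1 := by rw [star_pow, ← mul_pow]; exact one_pow a
  rw [hb, ← mul_one (gI ^ a), ← q', ← mul_assoc, this, one_mul]

theorem iso_aut (hs : Function.Surjective ρ) [IsPretransitive A V]
    (hD : ∀ y : V, (∀ h : A, h • (0 : V) = 0 → h • y = y) → y = 0)
    (hw : ∀ k, adj 0 k → ∃ w, ¬ adj 0 w ∧ ¬ adj w k) : Nonempty (A ≃* Ru) := by
  have e : ρ.ker = Subgroup.center fourRu := by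
    refine le_antisymm (fun f hf => ?_) fun z hz => ?_
    · have h : ∀ k : V, f • k = k := fun k => congrArg (fun x : A => x.1 k) hf
      obtain ⟨a, ha⟩ := act_spec f 0
      rw [h] at ha
      have t : ∀ k, (f.1 (lv k)).1 = gI ^ a • sv k := fun k => by
        by_cases n : adj 0 k
        · obtain ⟨w, h1, h2⟩ := hw k n
          exact unit_eq h (Or.inr h2) (unit_eq h (Or.inr h1) ha)
        · exact unit_eq h (Or.inr n) ha
      let F : ruLattice →+ RuVec := AddMonoidHom.mk' (fun v => (f.1 v).1 - gI ^ a • v.1)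
        fun v w => by rw [f.2.1, AddSubgroup.coe_add, AddSubgroup.coe_add, smul_add]; abel
      have s : ∀ v : ruLattice, (f.1 v).1 = gI ^ a • v.1 := fun v => by
        obtain ⟨w, hw, q⟩ := L_le (K := F.ker.map ruLattice.subtype) (fun e k hk =>
          ⟨⟨_, pow_mem_L e (sv_mem hk)⟩, sub_eq_zero.2 ((f_pow f e (lv ⟨k, hk⟩)).trans (by
            rw [t]; exact smul_comm _ _ _)), rfl⟩) v.2
        exact Subtype.ext q ▸ sub_eq_zero.1 hw
      refine Subgroup.mem_center_iff.2 fun g => Subtype.ext (Equiv.ext fun v => Subtype.ext ?_)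
      exact (congrArg (fun x => (g.1 x).1) (Subtype.ext (s v))).trans
        ((f_pow g a v).trans (s _).symm)
    · have c : ∀ (h : A) (v : V), h • ρ z • v = ρ z • h • v := fun h v => by
        obtain ⟨g, rfl⟩ := hs h
        rw [smul_smul, smul_smul, ← map_mul, ← map_mul, Subgroup.mem_center_iff.1 hz]
      have o := hD (ρ z • 0) fun h i => by rw [c, i]
      refine Subtype.ext (Equiv.ext fun v => ?_)
      obtain ⟨g, rfl⟩ := exists_smul_eq A 0 v
      exact (c g 0).symm.trans (congrArg _ o)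
  exact ⟨(QuotientGroup.quotientKerEquivOfSurjective ρ hs).symm.trans
    (QuotientGroup.quotientMulEquivOfEq e)⟩

noncomputable def φ : A →* Equiv.Perm ℕ :=
  (Equiv.Perm.viaEmbeddingHom Fin.valEmbedding).comp (Aut adj).subtype

theorem hφ (g : A) (p : V) : (g • p).1 = φ g p :=
  (Equiv.Perm.viaEmbedding_apply g.1 Fin.valEmbedding p).symm

noncomputable def ev (x : ℕ) : A :=
  if h : 1 ≤ x ∧ x < 10 then (ρ (exists_elt h.1 h.2).choose)⁻¹ else 1

theorem ev_mem (x : ℕ) : ev x ∈ ρ.range := by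
  unfold ev
  split_ifs
  exacts [inv_mem ⟨_, rfl⟩, one_mem _]

theorem ha : IsAct φ ev img 4060 10 := fun x h1 h2 p hp => by
  have l := (tab h1 h2 hp).1
  refine ⟨?_, l⟩
  rw [ev, dif_pos ⟨h1, h2⟩, map_inv, inv_inv]
  have s := (exists_elt h1 h2).choose_spec p hp
  generalize (exists_elt h1 h2).choose = f at s
  have t : f • (⟨p, hp⟩ : V) = ⟨_, l⟩ := act_eq s
  exact (hφ (ρ f) ⟨p, hp⟩).symm.trans (congrArg Fin.val t)

end Cfsg.H7.Ru
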