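import Cfsg.Agent.H7.RuH

/-! Recognition of the Rudvalis group as a rank 3 group. -/

set_option autoImplicit false
set_option maxRecDepth 100000
set_option exponentiation.threshold 5000

open Finset MulAction Matrix

namespace Cfsg.H7.Ru

open H6 R3 Spor Cfsg.Lie

attribute [local irreducible] row nb img df sg wv

theorem wordMat_eq (w : List (ℕ × ZMod 2)) (h : ∀ e ∈ w, e.1 ∈ RC.map Prod.fst) :
    chevF4.wordMat (ZMod 2) w = mt (pc rcl (iw w)) := by
  rw [← mt_pc]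
  induction w with
  | nil => rfl
  | cons e w ih =>
    have i := kr _ (h e List.mem_cons_self)
    have j := ih fun x y => h x (List.mem_cons_of_mem _ y)
    unfold ChevalleyDatum.wordMat iw at j ⊢
    rw [List.map_cons, List.prod_cons, j]
    rcases (by decide : ∀ t : ZMod 2, t = 0 ∨ t = 1) e.2 with q | q
    · rw [List.filter_cons_of_neg (by rw [q]; decide), q, eq_of_matEq (kx0 _ i), one_mul]
    · rw [List.filter_cons_of_pos (by rw [q]; decide), q, eq_of_matEq (kx1 _ i)]; rfl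

theorem ws_mem {w : List (ℕ × ZMod 2)} : w ∈ f4Words (ZMod 2) 1 ↔ ∃ t u, w ∈ ws t u := by
  simp only [f4Words, ws, List.mem_cons, List.not_mem_nil, or_false, Set.mem_union,
    Set.mem_ofPred_eq]
  refine ⟨?_, ?_⟩
  · rintro (⟨t, h | h⟩ | ⟨t, u, h | h⟩)
    exacts [⟨t, 0, .inl h⟩, ⟨t, 0, .inr (.inl h)⟩, ⟨t, u, .inr (.inr (.inl h))⟩,
      ⟨t, u, .inr (.inr (.inr h))⟩]
  · rintro ⟨t, u, h | h | h | h⟩
    exacts [.inl ⟨t, .inl h⟩, .inl ⟨t, .inr h⟩, .inr ⟨t, u, .inl h⟩, .inr ⟨t, u, .inr h⟩]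

noncomputable def gl (x : ℕ) : GL I52 (ZMod 2) :=
  if h : 1 ≤ x ∧ x < 5 then Units.ofPowEqOne (mt (lc x)) 4 (by
    rw [← mt_one, ← mt_congr (k4 x h.2 h.1), ← mt_pc]; simp [pow_succ, mul_assoc]) (by norm_num)
  else 1

theorem gl_val {x : ℕ} (h : 1 ≤ x ∧ x < 5) : (gl x).1 = mt (lc x) := by rw [gl, dif_pos h]; rfl

theorem adj0 (a : H) {p : V} (h : adj 0 p) : adj 0 (a • p) :=
  ((show a • (0 : V) = 0 from a.2) ▸ invH a 0 p :).2 h

/-- pairs that act in the same way on the labelled vectors -/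
def RG : Subgroup (GL I52 (ZMod 2) × H) where
  carrier := {z | ∀ p : V, adj 0 p → z.1.1 *ᵥ dc (wv p) = dc (wv (z.2 • p : V))}
  one_mem' := fun p _ => by simp
  mul_mem' := fun {x y} a b p h => by
    rw [Prod.fst_mul, Units.val_mul, ← mulVec_mulVec, b p h, a _ (adj0 _ h), Prod.snd_mul, mul_smul]
  inv_mem' := fun {x} a p h => by
    have := a _ (adj0 x.2⁻¹ h)
    rw [smul_inv_smul] at this
    rw [← this, mulVec_mulVec, Prod.fst_inv, Units.inv_mul, one_mulVec, Prod.snd_inv]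

theorem mem_D {p : V} (h : adj 0 p) : 1 ≤ p.1 ∧ p.1 < 1756 := by
  rw [adj_iff, show row (0 : V) = _ from kD] at h
  revert h
  exact (by decide +kernel : ∀ p < 4060, mb (one 1756 - 1) p = true → 1 ≤ p ∧ p < 1756) _ p.2 ∘
    mb_iff.2

theorem gl_mem {x : ℕ} (h : 1 ≤ x ∧ x < 5) :
    (gl x, (eH x)⁻¹) ∈ RG ⊓ (twistedF4 (ZMod 2) 1).comap (MonoidHom.fst _ H) := by
  refine ⟨fun p i => ?_, ?_⟩
  · have := range_join (allR_range kv0 rfl) (allR_range kv1 rfl) p (mem_D i).1 (mem_D i).2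
    rw [gl_val h, mt_vec, Nat.eq_of_beq_eq_true (allR_spec this x h.1 h.2), hφH, map_inv,
      (haH x h.1 h.2 p p.2).1]
  · obtain ⟨w, a, b⟩ := kw' x h.2 h.1
    exact Subgroup.subset_closure ⟨w, ws_mem.2 ⟨1, 0, a⟩, by
      rw [wordMat_eq w (kw 1 0 w a).1, mt_congr b]; exact gl_val h⟩

theorem dc_inj {a b : ℕ} (ha : a < 2 ^ 52) (hb : b < 2 ^ 52) (h : dc a = dc b) : a = b :=
  Nat.eq_of_testBit_eq fun k => by
    by_cases l : k < 52
    · obtain ⟨i, rfl⟩ := ps_sur k l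
      have := congrFun h i
      unfold dc at this
      revert this
      cases a.testBit (ps52 i) <;> cases b.testBit (ps52 i) <;> decide
    · have := Nat.pow_le_pow_right (by norm_num : 2 > 0) (not_lt.1 l)
      rw [Nat.testBit_lt_two_pow (ha.trans_le this), Nat.testBit_lt_two_pow (hb.trans_le this)]

theorem RG_fst {g : GL I52 (ZMod 2)} (h : (g, 1) ∈ RG) : g = 1 := by
  have a : ∀ L : List ℕ, (∀ p ∈ L, p < 4060 ∧ mb (row 0) p = true) →
      g.1 *ᵥ dc ((L.map wv).foldr Nat.xor 0) = dc ((L.map wv).foldr Nat.xor 0) := fun L => by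
    induction L with
    | nil => intro _; rw [List.map_nil, List.foldr_nil, additive_zero dc_xor, mulVec_zero]
    | cons p L ih =>
      intro k
      have := h ⟨p, (k p List.mem_cons_self).1⟩
        ((adj_iff 0 _).2 (mb_iff.1 (k p List.mem_cons_self).2))
      rw [one_smul] at this
      rw [List.map_cons, List.foldr_cons, show dc (Nat.xor _ _) = _ from dc_xor (wv p) _, mulVec_add,
        show g.1 *ᵥ dc (wv p) = _ from this,
        ih fun x y => k x (List.mem_cons_of_mem _ y)]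
  refine Units.ext (Matrix.ext fun i j => ?_)
  have := a _ (kS _ (ps_lt j)).1
  rw [(kS _ (ps_lt j)).2, dc_pow, mulVec_single_one] at this
  exact (congrFun this i).trans (Pi.single_apply ..)

theorem RG_one {a : H} (h : (1, a) ∈ RG) : a • (1 : V) = 1 := by
  have o : adj 0 (1 : V) := (adj_iff 0 1).2 (mb_iff.1 (by decide +kernel))
  have := h 1 o
  have l := mem_D (adj0 a o)
  rw [Units.val_one, one_mulVec] at this
  generalize a • (1 : V) = v at this l
  have q : wv 1 = wv v :=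
    dc_inj (by decide +kernel) (by unfold wv; exact Nat.and_lt_two_pow _ (by norm_num)) this
  by_contra n
  have := allR_spec kI v (by have : v.1 ≠ 1 := fun e => n (Fin.ext e); omega) l.2
  rw [← q] at this
  revert this
  decide +kernel

theorem RG_snd (s : ∀ b : H, ∃ g, (g, b) ∈ RG) {a : H} (h : (1, a) ∈ RG) : a = 1 := by
  have k : ∀ p : V, adj 0 p → a • p = p := fun p i => by
    obtain ⟨b, rfl⟩ := (mD p).1 (mem_fs.2 ((adj_iff 0 p).1 i))
    obtain ⟨g, j⟩ := s b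
    have := RG_one (a := b⁻¹ * a * b) (by simpa using mul_mem (mul_mem (inv_mem j) h) j)
    rwa [mul_smul, mul_smul, inv_smul_eq_iff] at this
  rw [← Subgroup.mem_bot, ← ((lb ⊤ fun _ => trivial).oracle haH card_le).2.1]
  intro b hb
  obtain ⟨l, m⟩ := (by decide +kernel : ∀ b ∈ [4, 2, 95, 1], b < 4060 ∧ mb (row 0) b = true) b hb
  exact (hφH _ ⟨b, l⟩).symm.trans (congrArg Fin.val (k ⟨b, l⟩ ((adj_iff 0 _).2 (mb_iff.1 m))))

theorem iso_of_graph {G K : Type*} [Group G] [Group K] (R : Subgroup (G × K)) (T : Subgroup G)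
    (h : ∀ z ∈ R, z.1 ∈ T) (s1 : T ≤ R.map (MonoidHom.fst G K)) (s2 : ∀ a, ∃ g, (g, a) ∈ R)
    (i1 : ∀ a, (1, a) ∈ R → a = 1) (i2 : ∀ g, (g, 1) ∈ R → g = 1) : Nonempty (K ≃* T) :=
  ⟨(MulEquiv.ofBijective ((MonoidHom.snd G K).comp R.subtype) ⟨(injective_iff_map_eq_one _).2
    fun ⟨⟨g, a⟩, i⟩ e => by
      obtain rfl : a = 1 := e
      exact Subtype.ext (Prod.ext (i2 g i) rfl), fun a => (s2 a).elim fun g i => ⟨⟨_, i⟩, rfl⟩⟩).symm.trans
    (MulEquiv.ofBijective (((MonoidHom.fst G K).comp R.subtype).codRestrict T fun z => h z z.2)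
      ⟨(injective_iff_map_eq_one _).2 fun ⟨⟨g, a⟩, i⟩ e => by
        obtain rfl : g = 1 := congrArg Subtype.val e
        exact Subtype.ext (Prod.ext rfl (i1 a i)),
      fun g => (s1 g.2).elim fun z i => ⟨⟨z, i.1⟩, Subtype.ext i.2⟩⟩)⟩

theorem RG_sur (a : H) : ∃ g, (g, a) ∈ RG ⊓ (twistedF4 (ZMod 2) 1).comap (MonoidHom.fst _ H) := by
  have := top_of ((RG ⊓ (twistedF4 (ZMod 2) 1).comap (MonoidHom.fst _ H)).map
    (MonoidHom.snd _ H)) fun x => by
      by_cases h : 1 ≤ x ∧ x < 5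
      · exact inv_mem_iff.1 (Subgroup.mem_map_of_mem _ (gl_mem h))
      · rw [eH, dif_neg h]; exact one_mem _
  obtain ⟨z, i, e⟩ := Subgroup.mem_map.1 (this.ge (Subgroup.mem_top a))
  exact ⟨z.1, e ▸ i⟩

theorem gl_prod {v : List ℕ} (d : inR 5 v = true) :
    ((v.map gl).prod).1 = (v.map fun x => mt (lc x)).prod := by
  rw [← Units.coeHom_apply, map_list_prod, List.map_map]
  exact congrArg _ (List.map_congr_left fun x i => gl_val (inR_spec d x i))

theorem tw_le (K : Subgroup (GL I52 (ZMod 2))) (h : ∀ x, 1 ≤ x ∧ x < 5 → gl x ∈ K) :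
    twistedF4 (ZMod 2) 1 ≤ K := by
  refine (Subgroup.closure_le _).2 fun g ⟨w, a, b⟩ => ?_
  obtain ⟨t, u, a⟩ := ws_mem.1 a
  obtain ⟨c, v, -, d, e⟩ := kw t u w a
  have : g = (v.map gl).prod := Units.ext (b.trans ((wordMat_eq w c).trans ((mt_congr e).trans
    ((mt_pc _ _).symm.trans (gl_prod d).symm))))
  exact this ▸ K.list_prod_mem (List.forall_mem_map.2 fun x i => h x (inR_spec d x i))

theorem iso_H : Nonempty (H ≃* twistedF4 (ZMod 2) 1) :=
  iso_of_graph (RG ⊓ (twistedF4 (ZMod 2) 1).comap (MonoidHom.fst _ H)) _ (fun _ h => h.2)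
    (tw_le _ fun _ h => Subgroup.mem_map_of_mem _ (gl_mem h)) RG_sur
    (fun _ h => RG_snd (fun b => (RG_sur b).imp fun _ i => i.1) h.1) fun _ h => RG_fst h.1

theorem s1669 {Ω : Type*} [Fintype Ω] [DecidableEq Ω] (hΩ : Fintype.card Ω = 4060)
    (G : Subgroup (Equiv.Perm Ω)) [IsPretransitive G Ω] (a : Ω)
    (e : stabilizer G a ≃* twistedF4 (ZMod 2) 1) (b c : Ω)
    (hb : (orbit (stabilizer G a) b).ncard = 1755) (hc : (orbit (stabilizer G a) c).ncard = 2304) :
    IsoRu G := by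
  obtain ⟨r, _, D', S', inv', w⟩ := exists_OM a b c 1755 2304 hb hc hΩ (by norm_num) (by norm_num)
    (by norm_num) (by rw [hΩ]; norm_num)
  obtain ⟨e1⟩ := iso_H
  obtain ⟨e2⟩ := iso_A
  let θ := e1.trans e.symm
  letI := MulAction.compHom Ω θ.toMonoidHom
  obtain ⟨f, hf⟩ := model.graph (by simpa using hΩ) (w.comp θ)
  have := pretr
  have i := (stabilizer G a).index_mul_card
  have j := (stabilizer A (0 : V)).index_mul_card
  rw [index_stabilizer_of_transitive, Nat.card_eq_fintype_card, hΩ, ← Nat.card_congr θ.toEquiv] at i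
  rw [index_stabilizer_of_transitive, Nat.card_eq_fintype_card, Fintype.card_fin, i] at j
  let π := f.permCongrHom
  have k : G.map π.toMonoidHom = Aut adj := Subgroup.eq_of_le_of_card_ge (by
    rintro _ ⟨g, hg, rfl⟩ u v
    obtain ⟨u, rfl⟩ := f.surjective u
    obtain ⟨v, rfl⟩ := f.surjective v
    have := inv' ⟨g, hg⟩ u v
    rw [hf, hf] at this
    simpa [π] using this) (by rw [← j]; exact (Subgroup.card_map_of_injective π.injective).ge)
  exact ⟨((π.subgroupMap G).trans (MulEquiv.subgroupCongr k)).trans e2⟩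

end Cfsg.H7.Ru
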