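import Cfsg.Agent.H7.RuB

/-! Kernel checks on the tables. -/

set_option autoImplicit false
set_option maxRecDepth 100000

namespace Cfsg.H7.Ru

open H6

theorem join4 {f : ℕ → Bool} (h0 : allR f 0 1015 = true) (h1 : allR f 1015 1015 = true)
    (h2 : allR f 2030 1015 = true) (h3 : allR f 3045 1015 = true) : ∀ k < 4060, f k = true :=
  fun k hk => range_join (allR_range h0 rfl) (range_join (allR_range h1 rfl) (range_join
    (allR_range h2 rfl) (allR_range h3 rfl))) k (Nat.zero_le _) hk

theorem kv_0 : allR vChk 0 1015 = true := by decide +kernel

theorem kv_1 : allR vChk 1015 1015 = true := by decide +kernel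

theorem kv_2 : allR vChk 2030 1015 = true := by decide +kernel

theorem kv_3 : allR vChk 3045 1015 = true := by decide +kernel

theorem kv : ∀ k < 4060, vChk k = true := join4 kv_0 kv_1 kv_2 kv_3

theorem kp_0 : allR pChk 0 1015 = true := by decide +kernel

theorem kp_1 : allR pChk 1015 1015 = true := by decide +kernel

theorem kp_2 : allR pChk 2030 1015 = true := by decide +kernel

theorem kp_3 : allR pChk 3045 1015 = true := by decide +kernel

theorem kp : ∀ k < 4060, pChk k = true := join4 kp_0 kp_1 kp_2 kp_3

theorem kc_0 : allR cChk 0 14 = true := by decide +kernel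

theorem kc_1 : allR cChk 14 14 = true := by decide +kernel

theorem kc_2 : allR cChk 28 14 = true := by decide +kernel

theorem kc_3 : allR cChk 42 14 = true := by decide +kernel

theorem kc : ∀ j < 56, cChk j = true :=
  fun k hk => range_join (allR_range kc_0 rfl) (range_join (allR_range kc_1 rfl) (range_join
    (allR_range kc_2 rfl) (allR_range kc_3 rfl))) k (Nat.zero_le _) hk

theorem km : allR mChk 1 9 = true := by decide +kernel

end Cfsg.H7.Ru
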