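import Cfsg.Agent.H7.R3D

/-! The rank 3 graph on 4060 points is determined by the action of the point stabiliser. -/

set_option autoImplicit false

open MulAction Finset

namespace Cfsg.H7.R3

theorem five_conj {H : Type*} [Group H] [Finite H] (U K : Subgroup H) (hH : ¬ 5 ^ 3 ∣ Nat.card H)
    (hU : Nat.card U = 200) (hK : 5 ^ 2 ∣ Nat.card K) :
    ∃ g : H, ∀ u ∈ U, u ^ 5 = 1 → g * u * g⁻¹ ∈ K := by
  have : Fact (Nat.Prime 5) := ⟨by norm_num⟩
  obtain ⟨F⟩ : Nonempty (Sylow 5 U) := inferInstance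
  have a := F.card_dvd_index
  have b := card_sylow_modEq_one 5 U
  have c : F.index ∣ 8 := (Nat.Coprime.pow_right 2 ((Nat.Prime.coprime_iff_not_dvd
    (by norm_num)).2 F.not_dvd_index).symm).dvd_of_dvd_mul_right
    (F.index_dvd_card.trans (dvd_of_eq hU))
  have d : Nat.card (Sylow 5 U) = 1 := by
    have e := a.trans c
    have := Nat.le_of_dvd (by norm_num) e
    unfold Nat.ModEq at b
    generalize Nat.card (Sylow 5 U) = n at *
    interval_cases n <;> omega
  have := (Nat.card_eq_one_iff_unique.1 d).1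
  obtain ⟨J, hJ⟩ := Sylow.exists_subgroup_card_pow_prime 5 hK
  have cJ : Nat.card (J.map K.subtype) = 5 ^ 2 := (Subgroup.card_subtype K J).trans hJ
  obtain ⟨S, hS⟩ := (F.isPGroup'.map U.subtype).exists_le_sylow
  obtain ⟨T, hT⟩ := (IsPGroup.of_card cJ).exists_le_sylow
  obtain ⟨k, hk⟩ := T.isPGroup'.exists_card_eq
  have e : J.map K.subtype = T := Subgroup.eq_of_le_of_card_ge hT (by
    rw [cJ, hk]
    exact Nat.pow_le_pow_right (by norm_num) (not_lt.1 fun l => hH ((pow_dvd_pow 5 l).trans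
      (hk ▸ T.card_subgroup_dvd_card))))
  obtain ⟨g, hg⟩ := exists_smul_eq H S T
  refine ⟨g, fun u hu h5 => Subgroup.map_subtype_le J ?_⟩
  obtain ⟨Q, hQ⟩ := (IsPGroup.of_card_dvd_pow (p := 5) (n := 1) (G := Subgroup.zpowers (⟨u, hu⟩ : U)) (by
    rw [Nat.card_zpowers, pow_one]; exact orderOf_dvd_of_pow_eq_one (Subtype.ext h5))).exists_le_sylow
  rw [e, ← hg]
  exact Subgroup.smul_mem_pointwise_smul u (MulAut.conj g) S
    (hS ⟨_, Subsingleton.elim Q F ▸ hQ (Subgroup.mem_zpowers _), rfl⟩)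

theorem arR1 {t a b c d : ℕ} (h : t ≤ 4 ∨ t ∣ 16) (p : 0 < t) (s : t - 1 = a + b + c + d)
    (d1 : 78 ∣ t * a) (d2 : 300 ∣ t * b) (d3 : 650 ∣ t * c) (d4 : 975 ∣ t * d) : t = 1 := by
  have l : t ≤ 16 := h.elim (by omega) (Nat.le_of_dvd (by norm_num))
  have k : ∀ n x, x ≤ 15 → 240 < n → n ∣ t * x → x = 0 := fun n x i j k =>
    (Nat.mul_eq_zero.1 (Nat.eq_zero_of_dvd_of_lt k (by nlinarith))).resolve_left (by omega)
  have := k _ b (by omega) (by norm_num) d2
  have := k _ c (by omega) (by norm_num) d3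
  have := k _ d (by omega) (by norm_num) d4
  obtain rfl : a = t - 1 := by omega
  clear k d2 d3 d4 s
  interval_cases t <;> simp_all

theorem arR2 {e a b c d u v : ℕ} (s : e = a + b + c + d) (d1 : 10 ∣ a) (d2 : 80 ∣ b) (d3 : 640 ∣ c)
    (d4 : 1024 ∣ d) (l1 : a ≤ 10) (l2 : b ≤ 80) (l3 : c ≤ 640) (l4 : d ≤ 1024)
    (n1 : 1755 * u = 2304 * v) (n2 : 1 + e + u = 1755) (n4 : e + 1 ≠ 1755) :
    d = 0 ∧ e = 730 ∧ v = 780 := by
  obtain rfl | rfl : a = 0 ∨ a = 10 := by omega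
  all_goals obtain rfl | rfl : b = 0 ∨ b = 80 := by omega
  all_goals obtain rfl | rfl : c = 0 ∨ c = 640 := by omega
  all_goals obtain rfl | rfl : d = 0 ∨ d = 1024 := by omega
  all_goals omega

theorem arR3 {a b : ℕ} (s : 780 = a + b) (d : 975 ∣ b) : a = 780 := by omega

theorem arR4 {a b c d : ℕ} (s : 975 = a + b + c + d) (d1 : 78 ∣ a) (d2 : 300 ∣ b) (d3 : 650 ∣ c)
    (d4 : 975 ∣ d) : d = 975 := by omega

variable {H V : Type*} [Group H] [MulAction H V] [DecidableEq V]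

theorem dvd_of_idx {J L : Subgroup H} {O E : Finset V} {n : ℕ} (hi : Inv J O)
    (h : ∀ x ∈ O, n ∣ (stabilizer H x).relIndex J) (hL : L ≤ J) (hE : Inv L E) :
    n ∣ L.relIndex J * (E ∩ O).card :=
  dvd_of_orb L n _ _ (hE.inter (hi.mono hL)) fun x hx => (h x (mem_inter.1 hx).2).trans (by
    rw [mul_comm, ← Subgroup.inf_relIndex_right _ L,
      Subgroup.relIndex_mul_relIndex _ L J inf_le_right hL]
    exact Subgroup.relIndex_dvd_of_le_left J inf_le_left)

/-- the elements of order five fixing two points lie in `K` -/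
def Has5 (K : Subgroup H) (x y : V) : Prop := ∀ u : H, u • x = x → u • y = y → u ^ 5 = 1 → u ∈ K

/-- the facts used about the model -/
structure RM (H : Type*) [Group H] [MulAction H V] (adj c : V → V → Prop) [DecidableRel adj]
    (o p q q' d : V) (D S A1 A2 A3 A4 C1 C2 C3 B : Finset V) : Prop where
  card : Nat.card H = 35942400
  sym : ∀ u v, adj u v → adj v u
  irr : ∀ u, ¬ adj u u
  inv : ∀ (h : H) u v, adj (h • u) (h • v) ↔ adj u v
  fix : ∀ h : H, h • o = o
  nb : ∀ v, adj o v ↔ v ∈ D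
  oS : o ∉ S
  dj : ∀ v ∈ D, v ∉ S
  mD : ∀ v, v ∈ D ↔ v ∈ orbit H p
  mS : ∀ v, v ∈ S ↔ v ∈ orbit H q
  cD : D.card = 1755
  cS : S.card = 2304
  a1 : IsO (stabilizer H p) A1 10
  a2 : IsO (stabilizer H p) A2 80
  a3 : IsO (stabilizer H p) A3 640
  a4 : IsO (stabilizer H p) A4 1024
  pa : ∀ E ⊆ D, p ∉ E → E.card = (E ∩ A1).card + (E ∩ A2).card + (E ∩ A3).card + (E ∩ A4).card
  na : ∀ v ∈ D, v ≠ p → (adj p v ↔ v ∉ A4)
  cp : (D.filter (adj p)).card = 730
  ci : ∀ (h : H) u v, c (h • u) (h • v) ↔ c u v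
  c1 : ∀ v ∈ A1, c p v
  c2 : ∀ x ∈ A1, ∀ y ∈ A1, ∀ z ∈ A1, c x y → c x z → y = z
  b1 : IsO (stabilizer H q) (D.filter (adj q)) 780
  b2 : IsO (stabilizer H q) (D.filter fun v => ¬ adj q v) 975
  s1 : IsO (stabilizer H q) C1 78
  s2 : Inv (stabilizer H q) C2
  s2' : ∀ x ∈ C2, 300 ∣ (stabilizer H x).relIndex (stabilizer H q)
  s3 : IsO (stabilizer H q) C3 650
  s4 : IsO (stabilizer H q) (S.filter (adj q)) 975
  ps : ∀ E ⊆ S, q ∉ E → E.card = (E ∩ C1).card + (E ∩ C2).card + (E ∩ C3).card +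
    (E ∩ S.filter (adj q)).card
  m1 : q' ∈ C1
  m2 : d ∈ D.filter fun v => ¬ adj q v
  m3 : q ∈ B ∧ q' ∈ B ∧ B.card ≤ 4
  cov : ∀ h : H, h • q ∉ B → ∃ n : H, (∀ b ∈ B, n • b ∈ B) ∧ ∀ K : Subgroup H,
    (∀ u : H, (∀ b ∈ B, u • b = b) → u ^ 5 = 1 → u ∈ K) → Has5 K (n • h • q) (n • h • q') →
    975 ≤ (orbit (K ⊓ stabilizer H q : Subgroup H) d).ncard ∨ 1755 ≤ (orbit K p).ncard

variable {adj c : V → V → Prop} [DecidableRel adj] {o p q q' d : V}
  {D S A1 A2 A3 A4 C1 C2 C3 B : Finset V}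

theorem conj_index (K : Subgroup H) (g : H) :
    (K.comap (MulAut.conj g).toMonoidHom).index = K.index :=
  K.index_comap_of_surjective (MulAut.conj g).surjective

omit [DecidableEq V] in
theorem conj_stab {K : Subgroup H} {g : H} {x : V}
    (e : K.comap (MulAut.conj g).toMonoidHom = stabilizer H x) : K = stabilizer H (g • x) := by
  ext u
  rw [mem_stabilizer_iff, ← inv_smul_eq_iff (g := g), ← mul_smul, ← mul_smul,
    ← mem_stabilizer_iff, ← e]
  simp [Subgroup.mem_comap, mul_assoc]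

namespace RM

variable (m : RM H adj c o p q q' d D S A1 A2 A3 A4 C1 C2 C3 B)
include m

theorem ip : (stabilizer H p).index = 1755 := (index_stab m.mD).trans m.cD

theorem iq : (stabilizer H q).index = 2304 := (index_stab m.mS).trans m.cS

theorem cK {K : Subgroup H} (hK : K.index = 2304) : Nat.card K = 15600 := by
  have := K.index_mul_card
  rw [hK, m.card] at this
  omega

/-- subgroups of index 1755 -/
theorem stepB (K : Subgroup H) (hK : K.index = 1755) (h2 : ¬ 2 ∣ (stabilizer H p).relIndex K) :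
    K = stabilizer H p := by
  obtain ⟨T, hT, pT, iT, cT, tT⟩ := exists_orbF K m.mD
  have i0 : (stabilizer H p).index ≠ 0 := by rw [m.ip]; norm_num
  have r := relIndex_symm (hK.trans m.ip.symm) i0
  have iT' : Inv (K ⊓ stabilizer H p) (T.erase p) := fun g hg v hv => mem_erase.2
    ⟨fun e => (mem_erase.1 hv).1 (MulAction.injective g (e.trans hg.2.symm)),
      iT g hg.1 v (mem_erase.1 hv).2⟩
  have d2 := m.a2.dvd inf_le_right iT'
  have d3 := m.a3.dvd inf_le_right iT'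
  have d4 := m.a4.dvd inf_le_right iT'
  have s := m.pa _ ((erase_subset p T).trans hT) (notMem_erase p T)
  have cK := K.index_mul_card
  have dK : (stabilizer H p).relIndex K ∣ Nat.card K := Subgroup.index_dvd_card _
  rw [hK, m.card] at cK
  rw [show Nat.card K = 5 * 2 ^ 12 by omega] at dK
  have d5 := (Nat.Coprime.pow_right 12 ((Nat.Prime.coprime_iff_not_dvd Nat.prime_two).2
    h2).symm).dvd_of_dvd_mul_right dK
  rcases (Nat.dvd_prime (by norm_num)).1 d5 with e | e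
  · exact eq_of_le_index (Subgroup.relIndex_eq_one.1 e) (hK.trans m.ip.symm) i0
  have c4 : (T.erase p).card = 4 := by rw [card_erase_of_mem pT, cT, e]
  rw [r, e] at d2 d3 d4
  have sub : T.erase p ⊆ A1 := inter_eq_left.1 (eq_of_subset_of_card_le inter_subset_left (by omega))
  obtain ⟨x, hx⟩ := card_pos.1 (by omega : 0 < (T.erase p).card)
  obtain ⟨k, hk, rfl⟩ := tT x (mem_erase.1 hx).2
  have t : ∀ y ∈ (T.erase p).erase (k • p), c (k • p) y := fun y hy => by
    rw [← smul_inv_smul k y, m.ci]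
    exact m.c1 _ (sub (mem_erase.2 ⟨fun e => (mem_erase.1 hy).1 (inv_smul_eq_iff.1 e),
      iT _ (inv_mem hk) _ (mem_erase.1 (mem_erase.1 hy).2).2⟩))
  have := card_le_one.2 fun y hy z hz => m.c2 _ (sub hx) y (sub (mem_erase.1 hy).2) z
    (sub (mem_erase.1 hz).2) (t y hy) (t z hz)
  rw [card_erase_of_mem hx] at this
  omega

theorem small (K : Subgroup H) (hK : K.index = 2304)
    (h : (stabilizer H q).relIndex K ≤ 4 ∨ (stabilizer H q).relIndex K ∣ 16) :
    K = stabilizer H q := by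
  obtain ⟨T, hT, pT, iT, cT, -⟩ := exists_orbF K m.mS
  have i0 : (stabilizer H q).index ≠ 0 := by rw [m.iq]; norm_num
  have r := relIndex_symm (hK.trans m.iq.symm) i0
  have iT' : Inv (K ⊓ stabilizer H q) (T.erase q) := fun g hg v hv => mem_erase.2
    ⟨fun e => (mem_erase.1 hv).1 (MulAction.injective g (e.trans hg.2.symm)),
      iT g hg.1 v (mem_erase.1 hv).2⟩
  have d1 := m.s1.dvd inf_le_right iT'
  have d2 := dvd_of_idx m.s2 m.s2' inf_le_right iT'
  have d3 := m.s3.dvd inf_le_right iT'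
  have d4 := m.s4.dvd inf_le_right iT'
  have s := m.ps _ ((erase_subset q T).trans hT) (notMem_erase q T)
  have p0 := card_pos.2 ⟨q, pT⟩
  rw [card_erase_of_mem pT] at s
  rw [cT] at s p0
  rw [r] at d1 d2 d3 d4
  refine eq_of_le_index (Subgroup.relIndex_eq_one.1 ?_) (hK.trans m.iq.symm) i0
  exact arR1 h p0 s d1 d2 d3 d4

theorem stepA' (K : Subgroup H) (hK : K.index = 2304) (h5 : Has5 K q q') :
    ∃ g : H, K = stabilizer H (g • q) := by
  by_cases a : ∀ k ∈ K, k • q ∈ B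
  · refine ⟨1, (m.small K hK (Or.inl ?_)).trans (by rw [one_smul])⟩
    rw [← ncard_orbit]
    exact (Set.ncard_le_ncard (t := B) (by rintro _ ⟨k, rfl⟩; exact a k k.2) (finite_toSet _)).trans
      ((Set.ncard_coe_finset _).le.trans m.m3.2.2)
  push Not at a
  obtain ⟨k, hk, a⟩ := a
  obtain ⟨n, hn, h⟩ := m.cov k a
  have hK' := (conj_index K n⁻¹).trans hK
  have cK' := m.cK hK'
  have fx : ∀ (u : H) (x : V), u • n • x = n • x → (n⁻¹ * u * n) • x = x := fun u x e => by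
    rw [mul_smul, mul_smul, e, inv_smul_smul]
  have pw : ∀ g u : H, u ^ 5 = 1 → (g⁻¹ * u * g) ^ 5 = 1 := fun g u e => by
    simpa [e] using conj_pow (a := g⁻¹) (b := u) (i := 5)
  rcases h (K.comap (MulAut.conj n⁻¹).toMonoidHom) (fun u a b => by
      simpa using h5 _ (fx u _ (a _ (hn _ m.m3.1))) (fx u _ (a _ (hn _ m.m3.2.1))) (pw n u b))
    (fun u a b e => by
      have := K.mul_mem (K.mul_mem hk (h5 (k⁻¹ * (n⁻¹ * u * n) * k)
        (by rw [mul_smul, mul_smul, fx u _ a, inv_smul_smul])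
        (by rw [mul_smul, mul_smul, fx u _ b, inv_smul_smul]) (pw k _ (pw n u e)))) (inv_mem hk)
      simpa [mul_assoc] using this) with h | h
  · refine ⟨n⁻¹, conj_stab (m.small _ hK' (Or.inr ?_))⟩
    generalize K.comap (MulAut.conj n⁻¹).toMonoidHom = K at *
    have i := ((isO_of (m.b2.inv.mono (inf_le_right : K ⊓ _ ≤ _)) m.m2 m.b2.card.le h).1.idx d m.m2)
    have j : (stabilizer H d).relIndex (K ⊓ stabilizer H q) ∣ _ := Subgroup.index_dvd_card _
    have l := ((stabilizer H q).subgroupOf K).index_mul_card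
    rw [← Subgroup.inf_subgroupOf_left, Nat.card_congr (Subgroup.subgroupOfEquivOfLe
      inf_le_left).toEquiv, Subgroup.inf_subgroupOf_left, cK'] at l
    obtain ⟨w, hw⟩ := i ▸ j
    refine ⟨w, Nat.eq_of_mul_eq_mul_left (by norm_num : 0 < 975) ?_⟩
    rw [hw] at l
    rw [Subgroup.relIndex]; linarith
  · have i := ((isO_of (fun g _ _ => inv_of_orb m.mD g) ((m.mD p).2 (mem_orbit_self p)) m.cD.le
      h).1.idx p ((m.mD p).2 (mem_orbit_self p)))
    have j : (stabilizer H p).relIndex (K.comap (MulAut.conj n⁻¹).toMonoidHom) ∣ _ :=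
      Subgroup.index_dvd_card _
    rw [i, cK'] at j
    omega

/-- subgroups of index 2304 -/
theorem stepA (K : Subgroup H) (hK : K.index = 2304) : ∃ g : H, K = stabilizer H (g • q) := by
  have : Finite H := Nat.finite_of_card_ne_zero (by rw [m.card]; norm_num)
  have l := ((stabilizer H q').subgroupOf (stabilizer H q)).index_mul_card
  rw [← Subgroup.inf_subgroupOf_right, Nat.card_congr (Subgroup.subgroupOfEquivOfLe
    inf_le_right).toEquiv, Subgroup.inf_subgroupOf_right, m.cK m.iq, ← Subgroup.relIndex,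
    m.s1.idx _ m.m1] at l
  obtain ⟨g, hg⟩ := five_conj (stabilizer H q' ⊓ stabilizer H q) K (by rw [m.card]; norm_num)
    (by omega) (by rw [m.cK hK]; norm_num)
  obtain ⟨n, hn⟩ := m.stepA' _ ((conj_index K g).trans hK) fun u a b e => hg u ⟨b, a⟩ e
  exact ⟨g * n, by rw [mul_smul]; exact conj_stab hn⟩

theorem graph {Ω : Type*} [MulAction H Ω] [DecidableEq Ω] [Fintype Ω] [Fintype V]
    (hc : Fintype.card Ω = Fintype.card V) {r : Ω → Ω → Prop} [DecidableRel r] {a b e : Ω}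
    {D' S' : Finset Ω} (w : OM H r a b e D' S' 1755 2304) :
    ∃ e : Ω ≃ V, ∀ u v, r u v ↔ adj (e u) (e v) := by
  obtain ⟨g, hg⟩ := exists_move 2 b m.mD (by rw [m.cD]; norm_num)
  obtain ⟨h, sc⟩ := m.stepA _ ((index_stab w.mS).trans w.cS)
  replace sc : stabilizer H (h⁻¹ • e) = stabilizer H q := by
    rw [stabilizer_smul_eq_stabilizer_map_conj, sc, ← stabilizer_smul_eq_stabilizer_map_conj,
      inv_smul_smul]
  replace w := w.move g h⁻¹
  generalize g • b = b at w hg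
  generalize h⁻¹ • e = e at w sc
  have bD := (w.mD b).2 (mem_orbit_self b)
  have cS := (w.mS e).2 (mem_orbit_self e)
  have sb := m.stepB _ ((index_stab w.mD).trans w.cD) hg
  obtain ⟨f, f1, f2⟩ := exists_eqv sb
  have ef : Eqv H f b p D' D := ⟨f1, f2, w.mD, m.mD⟩
  obtain ⟨E, e1, e2, e3, e4⟩ := ef.img _ _ (w.stab b)
  have pE : p ∉ E := fun i => w.irr b ((e4 b bD).1 (ef.base ▸ i))
  rw [sb] at e3
  have s := m.pa E e1 pE
  have d1 := m.a1.dvd le_rfl e3
  have d2 := m.a2.dvd le_rfl e3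
  have d3 := m.a3.dvd le_rfl e3
  have d4 := m.a4.dvd le_rfl e3
  have n3 := w.rS e cS
  rw [Subgroup.relIndex_self, one_mul] at d1 d2 d3 d4
  obtain ⟨x1, x2, x3⟩ := arR2 s d1 d2 d3 d4 (m.a1.le E) (m.a2.le E) (m.a3.le E) (m.a4.le E) w.count
    (e2 ▸ w.rD b bD) (e2 ▸ w.lam b bD)
  have eE : E = D.filter (adj p) := eq_of_subset_of_card_le (fun v hv => mem_filter.2 ⟨e1 hv,
    (m.na v (e1 hv) fun i => pE (i ▸ hv)).2 fun i => notMem_empty v
      (card_eq_zero.1 x1 ▸ mem_inter.2 ⟨hv, i⟩)⟩) (by rw [m.cp, x2])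
  obtain ⟨M, m1, m2, m3, m4⟩ := ef.img _ _ (w.stab e)
  rw [sc] at m3
  have s1 := SM.partB (adj := adj) (q := q) M m1
  have d5 := m.b2.dvd le_rfl m3
  rw [Subgroup.relIndex_self, one_mul] at d5
  have eM : M = D.filter (adj q) := (eq_of_subset_of_card_le
    (m.b1.sub (arR3 ((m2.trans x3).symm.trans s1) d5)) (by rw [m.b1.card, m2, x3])).symm
  obtain ⟨f', g1, g2⟩ := exists_eqv sc
  have eg : Eqv H f' e q S' S := ⟨g1, g2, w.mS, m.mS⟩
  obtain ⟨N, k1, k2, k3, k4⟩ := eg.img _ _ (w.stab e)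
  rw [sc] at k3
  have s' := m.ps N k1 fun i => w.irr e ((k4 e cS).1 (eg.base ▸ i))
  have d6 := m.s1.dvd le_rfl k3
  have d7 := dvd_of_idx m.s2 m.s2' le_rfl k3
  have d8 := m.s3.dvd le_rfl k3
  have d9 := m.s4.dvd le_rfl k3
  rw [Subgroup.relIndex_self, one_mul] at d6 d7 d8 d9
  have cN : N.card = 975 := by
    rw [x3] at n3; rw [k2]; exact Nat.add_left_cancel (n := 780) n3
  have eN : N = S.filter (adj q) := (eq_of_subset_of_card_le
    (m.s4.sub (arR4 (cN.symm.trans s') d6 d7 d8 d9)) (by rw [m.s4.card, cN])).symm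
  refine w.glue hc m.sym m.inv m.fix m.nb (fun i => m.irr o ((m.nb o).2 i)) m.oS m.dj ef eg
    (fun v i => ?_) (fun v i => ?_) fun v i => ?_
  · rw [← e4 v i, eE, mem_filter, and_iff_right (ef.mem i)]
  · rw [← m4 v i, eM, mem_filter, and_iff_right (ef.mem i)]
  · rw [← k4 v i, eN, mem_filter, and_iff_right (eg.mem i)]

end RM

end Cfsg.H7.R3
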