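import Cfsg.Agent.H7.RuQ1
import Cfsg.Agent.H7.RuQ2

/-! The automorphism group of the graph and its point stabiliser. -/

set_option autoImplicit false
set_option maxRecDepth 100000
set_option exponentiation.threshold 5000

open Finset MulAction

namespace Cfsg.H7.Ru

open H6 R3 Spor

attribute [local irreducible] row nb img df sg

theorem orbGe {X : Type*} [Group X] [MulAction X V] {φ : X →* Equiv.Perm ℕ}
    (hφ : ∀ (g : X) (p : V), (g • p).1 = φ g p) {K : Subgroup X} {x : V} {M : ℕ}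
    (h : OrbGe φ K x.1 M) : M ≤ (orbit K x).ncard := by
  obtain ⟨S, h1, h2⟩ := h
  rw [← Set.ncard_image_of_injective _ Fin.val_injective]
  refine h1.trans ((Set.ncard_coe_finset S).ge.trans (Set.ncard_le_ncard (fun y hy => ?_)
    ((Set.toFinite _).image _)))
  obtain ⟨g, hg, rfl⟩ := h2 y hy
  exact ⟨_, ⟨⟨g⁻¹, inv_mem hg⟩, rfl⟩, (hφ g⁻¹ x).trans (by rw [map_inv])⟩

abbrev H : Type := stabilizer A (0 : V)

noncomputable def φH : H →* Equiv.Perm ℕ := φ.comp (Subgroup.subtype _)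

theorem hφH (g : H) (p : V) : (g • p).1 = φH g p := hφ g p

theorem img0 : ∀ x < 5, img x 0 = 0 := by decide +kernel

theorem ev_fix (x : ℕ) (h : 1 ≤ x ∧ x < 5) : ev x ∈ stabilizer A (0 : V) := by
  rw [stab_eq_fixS hφ, mem_fixS']
  exact List.forall_mem_singleton.2 ((ha x h.1 (by omega) 0 (by omega)).1.trans (img0 x h.2))

noncomputable def eH (x : ℕ) : H := if h : 1 ≤ x ∧ x < 5 then ⟨ev x, ev_fix x h⟩ else 1

theorem haH : IsAct φH eH img 4060 5 := fun x h1 h2 p hp => by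
  rw [eH, dif_pos ⟨h1, h2⟩]; exact ha x h1 (by omega) p hp

theorem invH (g : H) (u v : V) : adj (g • u) (g • v) ↔ adj u v := g.1.2 u v

theorem act {w : List ℕ} (hw : inR 5 w = true) (x : V) :
    ((evL eH w)⁻¹ • x : V).1 = trF img w x := by rw [hφH, map_inv, (haH.trF hw x.2).1]

variable {B : Subgroup H}

theorem i0 : Inv B (fs (row 0)) := im_row invH (x := 0) fun g _ => g.2

theorem iS : Inv B (fs mS) := im_df (im_df im_ON i0) (im_sg (x := 0) fun g _ => g.2)

theorem iO (h : ∀ g ∈ B, g • (1 : V) = 1) : Inv B (fs mO) :=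
  im_df (im_df i0 (im_row invH (x := 1) h)) (im_sg (x := 1) h)

theorem iP (h : ∀ g ∈ B, g • (1 : V) = 1) : ∀ e ∈ [(217, mkS L10), (90, m80), (26, m640)],
    Inv B (fs e.2) ∧ ∀ v : V, mem e.2 v ↔ mem mL v ∧ nb mL v = e.1 :=
  im_flt invH (im_land i0 (im_row invH h)) (im_land i0 (im_row invH h)) (join4 kP0 kP1 kP2 kP3)

theorem card_le : Nat.card H ≤ 35942400 := by
  let B1 : Subgroup H := stabilizer H (1 : V) ⊓ ⊤
  let B2 : Subgroup H := stabilizer H (95 : V) ⊓ B1
  let B3 : Subgroup H := stabilizer H (2 : V) ⊓ B2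
  let B4 : Subgroup H := stabilizer H (4 : V) ⊓ B3
  have a1 := card_step (B := ⊤) i0 (x := 1) (c := 1755) (by decide +kernel) (by decide +kernel)
  have a2 := card_step (B := B1) (iO fun _ h => h.1) (x := 95) (c := 1024) (by decide +kernel)
    (by decide +kernel)
  have j : Inv B2 (fs (Nat.land (mkS L10) (row 95))) :=
    im_land (iP (B := B2) (fun _ h => h.2.1) _ List.mem_cons_self).1 (im_row invH (x := 95) fun _ h => h.1)
  have a3 := card_step j (x := 2) (c := 5) (by decide +kernel) (by decide +kernel)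
  have a4 := card_step (B := B3) (im_df (N := sg 2) (j.mono inf_le_right) (im_sg (x := 2)
    fun _ h => h.1)) (x := 4) (c := 4) (by decide +kernel) (by decide +kernel)
  have a5 : Nat.card B4 ≤ 1 := (Subgroup.card_le_one_iff_eq_bot _).2 (eq_bot_iff.2 fun g hg =>
    Subtype.ext (Subtype.ext (Equiv.ext (run_sound invH (B := B4) _ _ _ (by
      simp only [List.forall_mem_cons]
      exact ⟨im_sg (x := 4) fun _ h => h.1, im_sg (x := 2) fun _ h => h.2.1,
        im_sg (x := 95) fun _ h => h.2.2.1, im_sg (x := 1) fun _ h => h.2.2.2.1,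
        im_sg (x := 0) fun g _ => g.2, (iP (B := B4) (fun _ h => h.2.2.2.1) _ List.mem_cons_self).1, im_ON,
        by simp⟩) krun g hg))))
  rw [Subgroup.card_top] at a1
  exact a1.trans (Nat.mul_le_mul_left _ (a2.trans (Nat.mul_le_mul_left _ (a3.trans
    (Nat.mul_le_mul_left _ (a4.trans (Nat.mul_le_mul_left _ a5)))))))

theorem lb (K : Subgroup H) (hK : ∀ x, eH x ∈ K) : LBn φH K 4060 [4, 2, 95, 1] 35942400 :=
  have m : ∀ Ws : List (List ℕ), ∀ w ∈ Ws, evL eH w ∈ K := fun _ _ _ =>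
    evL_mem_of_letters fun x _ => hK x
  (((((LBn.nil φH K 4060).stepU haH (m _) c1).stepU haH (m _) c2).stepU haH (m _) c3).stepU haH
    (m _) c4).cast rfl

theorem top_of (K : Subgroup H) (hK : ∀ x, eH x ∈ K) : K = ⊤ :=
  K.eq_top_of_le_card (card_le.trans (lb K hK).1.le_card)

theorem card_H : Nat.card H = 35942400 := ((lb ⊤ fun _ => trivial).oracle haH card_le).1

theorem ora : Oracle eH img 5 [4, 2, 95, 1] := ((lb ⊤ fun _ => trivial).oracle haH card_le).2.2

theorem og {K : Subgroup H} {bs : List ℕ} {b : V} {k U : ℕ} {W : List (List ℕ)}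
    (hK : ∀ w ∈ W, evL eH w ∈ K) (hb : ltB 4060 bs = true)
    (h : lvlChk img 4060 5 bs (b, W, unp k U) = true) :
    k + 1 ≤ (orbit (K ⊓ fixS φH bs : Subgroup H) b).ncard :=
  orbGe hφH (by simpa only [length_unp] using
    (lvl_sound haH (ltB_spec hb) (L := (b, W, unp k U)) hK h).2)

theorem orb_of {M k U : ℕ} {b : V} {W : List (List ℕ)} (hi : Inv (⊤ : Subgroup H) (fs M))
    (h : lvlChk img 4060 5 [] (b, W, unp k U) = true)
    (hb : (mb M b && Nat.beq (cnt (mb M) 4060) (k + 1)) = true) (v : V) :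
    v ∈ fs M ↔ v ∈ orbit H b := by
  rw [Bool.and_eq_true, Nat.beq_eq, mb_iff, ← mem_fs, ← card_fs] at hb
  have := og (K := ⊤) (fun _ _ => trivial) rfl h
  rw [fixS_nil, top_inf_eq] at this
  exact ⟨fun a => ((isO_of hi hb.1 hb.2.le this).2 v a).elim fun g e => ⟨g.1, e⟩,
    fun ⟨g, e⟩ => e ▸ hi g trivial b hb.1⟩

theorem mD : ∀ v, v ∈ fs (row 0) ↔ v ∈ orbit H (1 : V) := orb_of i0 c1 (by decide +kernel)

theorem mS' : ∀ v, v ∈ fs mS ↔ v ∈ orbit H (1756 : V) := orb_of iS cS (by decide +kernel)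

theorem mem_mS {v : V} : mem mS v ↔ ¬ adj 0 v ∧ v ≠ 0 := by
  rw [mS, mem_df, mem_df, mem_sg, adj_iff, and_iff_right (show mem ON v from mem_one v.2), ne_eq,
    Fin.ext_iff]
  rfl

theorem trans0 (v : V) : ∃ g ∈ ρ.range, g • (0 : V) = v := by
  have := orbGe hφ (x := 0) (lvl_sound ha (K := ρ.range) (by simp) (fun _ _ =>
    evL_mem_of_letters fun x _ => ev_mem x) c0).2
  rw [fixS_nil, inf_top_eq, length_unp] at this
  obtain ⟨g, e⟩ := (isO_of (O := univ) (fun _ _ _ _ => mem_univ _) (mem_univ _) (by simp) this).2 v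
    (mem_univ _)
  exact ⟨g, g.2, e⟩

theorem pretr : IsPretransitive A V := .of_orbit (x₀ := 0) fun v => (trans0 v).imp fun _ h => h.2

theorem iso_A : Nonempty (A ≃* Ru) := by
  have := pretr
  have k := top_of (ρ.range.subgroupOf _) fun x => by
    unfold eH
    split_ifs
    exacts [ev_mem x, one_mem _]
  refine iso_aut (fun a => ?_) (fun y h => ?_) fun k a => ?_
  · obtain ⟨g, i, e⟩ := trans0 (a • 0)
    simpa using mul_mem i (k.ge trivial : (⟨g⁻¹ * a, by
      rw [mem_stabilizer_iff, mul_smul, ← e, inv_smul_smul]⟩ : H) ∈ ρ.range.subgroupOf _)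
  · have s : ∀ b u v : V, y ∈ orbit H b → u ∈ orbit H b → v ∈ orbit H b → u = v :=
      fun b u v i j l => by
        rw [← orbit_eq_iff.2 i] at j l
        obtain ⟨g, rfl⟩ := j
        obtain ⟨g', rfl⟩ := l
        exact (h g g.2).trans (h g' g'.2).symm
    by_contra n
    by_cases a : adj 0 y
    · exact absurd (s _ 1 2 ((mD y).1 (mem_fs.2 ((adj_iff 0 y).1 a))) (mem_orbit_self _)
        ((mD _).1 (mem_fs.2 (mb_iff.1 (by decide +kernel))))) (by decide)
    · exact absurd (s _ 1756 1757 ((mS' y).1 (mem_fs.2 (mem_mS.2 ⟨a, n⟩))) (mem_orbit_self _)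
        ((mS' _).1 (mem_fs.2 (mb_iff.1 (by decide +kernel))))) (by decide)
  · obtain ⟨g, rfl⟩ := (mD k).1 (mem_fs.2 ((adj_iff 0 k).1 a))
    refine ⟨g • 2780, ?_, (invH g _ _).not.2 ?_⟩
    · refine ((show g • (0 : V) = 0 from g.2) ▸ invH g 0 2780 :).not.2 ?_
      rw [adj_iff, ← mb_iff]; decide +kernel
    · rw [adj_iff, ← mb_iff]; decide +kernel

end Cfsg.H7.Ru
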