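import Cfsg.Agent.H7.RuN
import Cfsg.Agent.H7.RuQ3
import Cfsg.Agent.H7.RuM

/-! The facts about the point stabiliser that determine the graph. -/

set_option autoImplicit false
set_option maxRecDepth 100000
set_option exponentiation.threshold 5000

open Finset MulAction Pointwise

namespace Cfsg.H7.Ru

open H6 R3 Spor

attribute [local irreducible] row nb img df sg

theorem fil (M : ℕ) (u : V) : (fs M).filter (adj u) = fs (Nat.land M (row u)) := by
  ext v; simp only [mem_filter, mem_fs, mem_land, adj_iff]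

theorem fil' (M : ℕ) (u : V) : ((fs M).filter fun v => ¬ adj u v) = fs (df M (row u)) := by
  ext v; simp only [mem_filter, mem_fs, mem_df, adj_iff]

theorem two (E : Finset V) {a b : ℕ} (h : Nat.land a b = 0) :
    (E ∩ fs (Nat.lor a b)).card = (E ∩ fs a).card + (E ∩ fs b).card := by
  have d : Disjoint (E ∩ fs a) (E ∩ fs b) := disjoint_left.2 fun v i j => not_mem_zero v
    (h ▸ mem_land.2 ⟨mem_fs.1 (mem_inter.1 i).2, mem_fs.1 (mem_inter.1 j).2⟩)
  rw [← card_union_of_disjoint d]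
  congr 1
  ext v
  simp only [mem_inter, mem_union, mem_fs, mem_lor, and_or_left]

theorem part4 {M a b c d : ℕ} {x : V} (h : Nat.land a b = 0 ∧ Nat.land (Nat.lor a b) c = 0 ∧
    Nat.land (Nat.lor (Nat.lor a b) c) d = 0 ∧ df M (sg x) = Nat.lor (Nat.lor (Nat.lor a b) c) d) :
    ∀ E ⊆ fs M, x ∉ E →
      E.card = (E ∩ fs a).card + (E ∩ fs b).card + (E ∩ fs c).card + (E ∩ fs d).card :=
  fun E hE hx => by
    rw [← two E h.1, ← two E h.2.1, ← two E h.2.2.1, ← h.2.2.2, inter_eq_left.2 fun v hv =>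
      mem_fs.2 (mem_df.2 ⟨mem_fs.1 (hE hv), fun e => hx ((Fin.ext (mem_sg.1 e) : v = x) ▸ hv)⟩)]

theorem og1 {x b : V} {k U : ℕ} {W : List (List ℕ)}
    (h : lvlChk img 4060 5 [x.1] (b, W, unp k U) = true) :
    k + 1 ≤ (orbit (stabilizer H x) b).ncard := by
  have := og (K := ⊤) (fun _ _ => trivial) (by simp [ltB]) h
  rwa [top_inf_eq, ← stab_eq_fixS hφH] at this

theorem io {x b : V} {M k U : ℕ} {W : List (List ℕ)} (hi : Inv (stabilizer H x) (fs M))
    (h : lvlChk img 4060 5 [x.1] (b, W, unp k U) = true)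
    (hb : (mb M b && Nat.beq (cnt (mb M) 4060) (k + 1)) = true) :
    IsO (stabilizer H x) (fs M) (k + 1) := by
  rw [Bool.and_eq_true, Nat.beq_eq, mb_iff, ← mem_fs, ← card_fs] at hb
  exact (isO_of hi hb.1 hb.2.le (og1 h)).1

theorem clo {K : Subgroup H} {Ws : List (List ℕ)} (hW : ∀ w ∈ Ws, inR 5 w = true ∧ evL eH w ∈ K)
    {R us : List ℕ} {M N : ℕ} (hR : ltB 4060 R = true)
    (h : orbK img Ws (Nat.beq M) us (maskL R) = true)
    (hN : allR (fun v => !mb N v || R3.bit M v) 0 4060 = true) (v : V) (hv : v ∈ fs N) :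
    ∃ g ∈ K, ∃ r : V, r.1 ∈ R ∧ g • r = v := by
  have hv' := allR_spec hN _ (Nat.zero_le _) v.2
  rw [mb_iff.2 (mem_fs.1 hv), R3.bit_eq] at hv'
  obtain ⟨M', h1, h2⟩ := orbK_sound (P := fun p => ∃ g ∈ K, ∃ r : V, r.1 ∈ R ∧ (g • r).1 = p)
    (fun w hw p ⟨g, i, r, j, e⟩ => ⟨_, mul_mem (inv_mem (hW w hw).2) i, r, j, by
      rw [mul_smul, act (hW w hw).1, e]⟩) _ _ (fun p hp => ⟨1, one_mem _,
        ⟨p, ltB_spec hR p (maskL_spec hp)⟩, maskL_spec hp, by rw [one_smul]⟩) h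
  obtain ⟨g, i, r, j, e⟩ := h1 v (Nat.eq_of_beq_eq_true h2 ▸ hv')
  exact ⟨g, i, r, j, Fin.ext e⟩

theorem two_orb {J : Subgroup H} {O : Finset V} (hi : Inv J O) (hc : O.card = 600)
    (hl : ∀ x ∈ O, 300 ≤ (orbit J x).ncard) : ∀ x ∈ O, 300 ∣ (stabilizer H x).relIndex J := by
  intro x hx
  have s : ∀ y ∈ O, orbit J y ⊆ O := fun y hy _ ⟨g, e⟩ => e ▸ hi g g.2 y hy
  rw [← ncard_orbit]
  by_cases e : (O : Set V) ⊆ orbit J x
  · rw [← e.antisymm (s x hx), Set.ncard_coe_finset, hc]; norm_num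
  obtain ⟨y, hy, n⟩ := Set.not_subset.1 e
  have := Set.ncard_le_ncard (Set.union_subset (s x hx) (s y hy)) O.finite_toSet
  rw [Set.ncard_union_eq (Set.disjoint_left.2 fun z i j => n (by
    rw [← orbit_eq_iff.2 i, orbit_eq_iff.2 j]; exact mem_orbit_self y)), Set.ncard_coe_finset] at this
  have := hl x hx
  have := hl y hy
  omega

theorem fix_word {bs w : List ℕ} (hb : ltB 4060 bs = true) (h : fixB img 5 bs w = true) (v : V)
    (hv : v.1 ∈ bs) : evL eH w • v = v :=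
  Fin.ext ((hφH _ v).trans (haH.mem_fixS (ltB_spec hb) h _ hv))

theorem five {w : List ℕ} (h : fixB img 5 [4, 2, 95, 1] (w ++ w ++ w ++ w ++ w) = true) :
    evL eH w ^ 5 = 1 := by
  simpa only [evL_append, pow_succ, pow_zero, one_mul] using ora _ h

theorem iL : ∀ e ∈ [(125, mkS L78), (109, m600), (93, m650)],
    Inv (stabilizer H (1756 : V)) (fs e.2) ∧ ∀ v : V, mem e.2 v ↔ mem mN v ∧ nb mM v = e.1 :=
  im_flt invH (im_df (im_df iS (im_row invH (x := 1756) fun _ h => h)) (im_sg (x := 1756)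
    fun _ h => h)) (im_land i0 (im_row invH (x := 1756) fun _ h => h)) (join4 kL0 kL1 kL2 kL3)

theorem kU : ∀ j < 15, ltB 4060 (nthW BL j) = true ∧ ∀ w ∈ UW.getD j [],
    fixB img 5 (nthW BL j) w = true ∧ fixB img 5 [4, 2, 95, 1] (w ++ w ++ w ++ w ++ w) = true := by
  decide +kernel

theorem cls {j : ℕ} (hj : j < 15) (K : Subgroup H)
    (h : ∀ u : H, (∀ b ∈ fs (mkS B0), u • b = b) → u ^ 5 = 1 → u ∈ K) {x y : V}
    (hx : x.1 ∈ nthW BL j) (hy : y.1 ∈ nthW BL j) (k : Has5 K x y) :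
    975 ≤ (orbit (K ⊓ stabilizer H (1756 : V) : Subgroup H) (3 : V)).ncard ∨
      1755 ≤ (orbit K (1 : V)).ncard := by
  have a : ∀ w, fixB img 5 B0 w = true → fixB img 5 [4, 2, 95, 1] (w ++ w ++ w ++ w ++ w) = true →
      evL eH w ∈ K := fun w i j =>
    h _ (fun b hb => fix_word (by decide) i b (mem_mkS.1 (mem_fs.1 hb))) (five j)
  have m : ∀ w ∈ f1 :: f2 :: UW.getD j [], evL eH w ∈ K := by
    simp only [List.forall_mem_cons]
    exact ⟨a _ (by decide +kernel) (by decide +kernel), a _ (by decide +kernel) (by decide +kernel),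
      fun w hw => k _ (fix_word (kU j hj).1 ((kU j hj).2 w hw).1 x hx)
        (fix_word (kU j hj).1 ((kU j hj).2 w hw).1 y hy) (five ((kU j hj).2 w hw).2)⟩
  have r : ∀ {U}, lvlChk img 4060 5 [] (1, f1 :: f2 :: UW.getD j [], unp 1754 U) = true →
      1755 ≤ (orbit K (1 : V)).ncard := fun c => by
    have := og (b := 1) m rfl c
    rwa [fixS_nil, inf_top_eq] at this
  clear hx hy
  interval_cases j
  · exact Or.inl (stab_eq_fixS hφH (1756 : V) ▸ og (b := 3) m rfl cU0 :)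
  exacts [.inr (r cU1), .inr (r cU2), .inr (r cU3), .inr (r cU4), .inr (r cU5), .inr (r cU6),
    .inr (r cU7), .inr (r cU8), .inr (r cU9), .inr (r cU10), .inr (r cU11), .inr (r cU12),
    .inr (r cU13), .inr (r cU14)]

noncomputable def nOK (w : List ℕ) : Bool := inR 5 w && B0.all fun b => B0.elem (trF img w b)

theorem nOK_mem {w : List ℕ} (h : nOK w = true) :
    inR 5 w = true ∧ evL eH w ∈ stabilizer H (fs (mkS B0)) := by
  rw [nOK, Bool.and_eq_true, List.all_eq_true] at h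
  refine ⟨h.1, inv_mem_iff.1 (mem_stabilizer_finset'.2 fun b hb => ?_)⟩
  rw [mem_fs, mem_mkS] at hb ⊢
  rw [act h.1]
  exact List.mem_of_elem_eq_true (h.2 _ hb)

theorem kA : ∀ r ∈ [2217, 1872, 2198], ∃ a ∈ AR, inR 5 a.2.1 = true ∧ trF img a.2.1 1756 = r ∧
    a.2.2.map Prod.fst = L78 ∧ ∀ e ∈ a.2.2, nOK e.2.1 = true ∧ e.2.2 < 15 ∧
      trF img e.2.1 r ∈ nthW BL e.2.2 ∧ trF img e.2.1 (trF img a.2.1 e.1) ∈ nthW BL e.2.2 := by
  decide +kernel

theorem cover (h : H) (hh : h • (1756 : V) ∉ fs (mkS B0)) : ∃ n : H,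
    (∀ b ∈ fs (mkS B0), n • b ∈ fs (mkS B0)) ∧ ∀ K : Subgroup H,
    (∀ u : H, (∀ b ∈ fs (mkS B0), u • b = b) → u ^ 5 = 1 → u ∈ K) →
    Has5 K (n • h • (1756 : V)) (n • h • (1892 : V)) →
    975 ≤ (orbit (K ⊓ stabilizer H (1756 : V) : Subgroup H) (3 : V)).ncard ∨
      1755 ≤ (orbit K (1 : V)).ncard := by
  obtain ⟨g, i, r, j, e⟩ := clo (K := stabilizer H (fs (mkS B0))) (fun w hw => nOK_mem
    (List.all_eq_true.1 (by decide +kernel : NW.all nOK = true) w hw)) (by decide) cN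
    (by decide +kernel) (h • 1756) ((mS' _).2 (mem_orbit _ h))
  rcases List.mem_append.1 j with j | j
  · exact absurd (e ▸ mem_stabilizer_finset'.1 i (mem_fs.2 (mem_mkS.2 j))) hh
  obtain ⟨a, -, a1, a2, a3, a4⟩ := kA r j
  have r' : (evL eH a.2.1)⁻¹ • (1756 : V) = r := Fin.ext ((act a1 _).trans a2)
  have z := (iL _ List.mem_cons_self).1 (evL eH a.2.1 * g⁻¹ * h) (by
    rw [mem_stabilizer_iff, mul_smul, mul_smul, ← e, inv_smul_smul, ← r', smul_inv_smul]) 1892
    (mem_fs.2 (mb_iff.1 (by decide +kernel)))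
  rw [mem_fs, mem_mkS, ← a3] at z
  obtain ⟨y, y1, y2⟩ := List.mem_map.1 z
  obtain ⟨b1, b2, b3, b4⟩ := a4 y y1
  refine ⟨(evL eH y.2.1)⁻¹ * g⁻¹, mem_stabilizer_finset'.1 (mul_mem (inv_mem (nOK_mem b1).2)
    (inv_mem i)), fun K k1 k2 => cls b2 K k1 ?_ ?_ k2⟩
  · rwa [mul_smul, ← e, inv_smul_smul, act (nOK_mem b1).1]
  · rwa [y2, ← act a1, ← act (nOK_mem b1).1, mul_smul, mul_smul, inv_smul_smul, ← mul_smul] at b4

theorem kC : ∀ x ∈ L10, ∃ z ∈ L10, ∀ y ∈ L10, nb (Nat.land (row 0) (row x)) y = 217 → y = z := by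
  decide +kernel

theorem model : RM H adj (fun u v => nb (Nat.land (row 0) (row u)) v = 217) 0 1 1756 1892 3
    (fs (row 0)) (fs mS) (fs (mkS L10)) (fs m80) (fs m640) (fs mO) (fs (mkS L78)) (fs m600)
    (fs m650) (fs (mkS B0)) := by
  have P := iP (B := stabilizer H (1 : V)) fun _ h => h
  have L := iL
  simp only [List.forall_mem_cons] at P L
  have q : Inv (stabilizer H (1756 : V)) (fs (row 1756)) := im_row invH (x := 1756) fun _ h => h
  refine ⟨card_H, adj_symm, adj_irr, invH, fun h => h.2, fun v => (adj_iff 0 v).trans mem_fs.symm,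
    fun h => (mem_mS.1 (mem_fs.1 h)).2 rfl, fun v h i => (mem_mS.1 (mem_fs.1 i)).1
      ((adj_iff 0 v).2 (mem_fs.1 h)), mD, mS', (card_fs _).trans (by decide +kernel),
    (card_fs _).trans (by decide +kernel), io (b := 2) P.1.1 cP1 (by decide +kernel),
    io (b := 6) P.2.1.1 cP2 (by decide +kernel), io (b := 25) P.2.2.1.1 cP3 (by decide +kernel),
    io (b := 95) (iO fun _ h => h) c2 (by decide +kernel), part4 (by decide +kernel),
    fun v h i => ?_, by rw [fil, card_fs]; decide +kernel, fun h u v => ?_,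
    fun v h => ((P.1.2 v).1 (mem_fs.1 h)).2, fun x i y j z l a b => ?_,
    fil _ _ ▸ io (b := 1) (im_land i0 q) cL1 (by decide +kernel),
    fil' _ _ ▸ io (b := 3) (im_df i0 q) cL3 (by decide +kernel),
    io (b := 1892) L.1.1 cL1892 (by decide +kernel), L.2.1.1,
    two_orb L.2.1.1 ((card_fs _).trans (by decide +kernel)) fun x hx => ?_,
    io (b := 1757) L.2.2.1.1 cL1757 (by decide +kernel),
    fil _ _ ▸ io (b := 1773) (im_land iS q) cL1773 (by decide +kernel),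
    fil _ _ ▸ part4 (by decide +kernel), mem_fs.2 (mb_iff.1 (by decide +kernel)),
    fil' _ _ ▸ mem_fs.2 (mb_iff.1 (by decide +kernel)), ⟨mem_fs.2 (mb_iff.1 (by decide +kernel)),
      mem_fs.2 (mb_iff.1 (by decide +kernel)), (card_fs _).trans_le (by decide +kernel)⟩, cover⟩
  · rw [mem_fs, mO, mem_df, mem_df, mem_sg, adj_iff, and_iff_right (mem_fs.1 h),
      and_iff_left (show ¬ v.1 = 1 from fun e => i (Fin.ext e)), not_not]
    rfl
  · have s : ∀ u v : V, nb (Nat.land (row 0) (row u)) v =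
        #{w : V | adj v w ∧ adj 0 w ∧ adj u w} % 255 := fun u v => by
      unfold nb
      exact ct_fin _ _ fun w => by simp only [mem_land, adj_iff]; rfl
    rw [s, s, card_filter_smul h (fun u _ => ⟨mem_univ _, mem_univ _⟩) _ _ fun w => by
      rw [invH, invH, ((show h • (0 : V) = 0 from h.2) ▸ invH h 0 w :)]]
  · rw [mem_fs, mem_mkS] at i j l
    obtain ⟨e, -, e2⟩ := kC x i
    exact Fin.ext ((e2 y j a).trans (e2 z l b).symm)
  · obtain ⟨g, i, r, j, rfl⟩ := clo (K := stabilizer H (1756 : V)) (fun w hw => by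
      have := List.all_eq_true.1 (by decide +kernel : List.all _ (fixB img 5 [1756]) = true) w hw
      exact ⟨(Bool.and_eq_true _ _ ▸ this :).1, fix_word rfl this _ List.mem_cons_self⟩)
      (by decide) cL600 (by decide +kernel) x hx
    rw [show orbit _ (g • r) = _ from orbit_smul (⟨g, i⟩ : stabilizer H (1756 : V)) r]
    rcases List.mem_pair.1 j with j | j
    · rw [show r = 1781 from Fin.ext j]; exact og1 cL1781
    · rw [show r = 1801 from Fin.ext j]; exact og1 cL1801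

end Cfsg.H7.Ru
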