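import Cfsg.Agent.H7.RuG

/-! Invariant sets of vertices, computed with masks. -/

set_option autoImplicit false
set_option maxRecDepth 100000

open Finset MulAction

namespace Cfsg.H7.Ru

open H6 R3

noncomputable def fs (M : ℕ) : Finset V := univ.filter fun v => mem M v

theorem mem_fs {M : ℕ} {v : V} : v ∈ fs M ↔ mem M v := by simp [fs]

theorem card_fs (M : ℕ) : (fs M).card = cnt (mb M) 4060 :=
  card_eq_cnt _ _ fun _ => mem_fs.trans mb_iff.symm

/-- the number of neighbours in a mask, modulo 255 -/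
noncomputable def nb (C v : ℕ) : ℕ := ct 4060 (Nat.land (row v) C)

noncomputable def fChk (A C : ℕ) (KR : List (ℕ × ℕ)) (v : ℕ) : Bool :=
  @Bool.rec (fun _ => Bool) (KR.all fun e => !mb e.2 v)
    (frcB (fun c => KR.all fun e => Nat.beq c e.1 == mb e.2 v) (nb C v)) (mb A v)

noncomputable def fltM (f : ℕ → ℕ) (L : List ℕ) (k : ℕ) : ℕ := @List.rec _ (fun _ => ℕ) (nat_lit 0)
  (fun v _ acc => @Bool.rec (fun _ => ℕ) acc (Nat.lor (sg v) acc) (Nat.beq (f v) k)) L

theorem mem_fltM {f : ℕ → ℕ} {L : List ℕ} {k v : ℕ} : mem (fltM f L k) v ↔ v ∈ L ∧ f v = k := by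
  induction L with
  | nil => exact iff_of_false (not_mem_zero v) (by simp)
  | cons u L ih =>
    show mem (@Bool.rec (fun _ => ℕ) (fltM f L k) (Nat.lor (sg u) (fltM f L k))
      (Nat.beq (f u) k)) v ↔ _
    cases e : Nat.beq (f u) k
    · have := Nat.ne_of_beq_eq_false e
      rw [List.mem_cons]
      exact ih.trans ⟨fun a => ⟨Or.inr a.1, a.2⟩, fun a => ⟨a.1.resolve_left fun q =>
        this (q ▸ a.2), a.2⟩⟩
    · have := Nat.eq_of_beq_eq_true e
      rw [List.mem_cons]
      exact mem_lor.trans ((or_congr mem_sg ih).trans ⟨fun a => a.elim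
        (fun q => ⟨Or.inl q, q ▸ this⟩) fun q => ⟨Or.inr q.1, q.2⟩,
        fun a => a.1.imp id fun q => ⟨q, a.2⟩⟩)

abbrev Op : Type := ℕ × ℕ × ℕ × List ℕ

noncomputable def okOp (o : Op) (Ms : List ℕ) : Bool :=
  @Nat.rec (fun _ => Bool) true (fun c _ => @Nat.rec (fun _ => Bool) true (fun c _ =>
    @Nat.rec (fun _ => Bool) (andB (Nat.beq (nthN Ms o.2.1) (sg o.2.2.1)) (Nat.blt o.2.2.1 4060))
      (fun _ _ => Nat.beq (nthN Ms o.2.1) (mkS o.2.2.2)) c) c) o.1

noncomputable def nwOp (o : Op) (Ms : List ℕ) : ℕ :=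
  @Nat.rec (fun _ => ℕ) (Nat.land (nthN Ms o.2.1) (nthN Ms o.2.2.1)) (fun c _ =>
    @Nat.rec (fun _ => ℕ) (df (nthN Ms o.2.1) (nthN Ms o.2.2.1)) (fun c _ =>
      @Nat.rec (fun _ => ℕ) (row o.2.2.1) (fun k _ => fltM (nb (nthN Ms o.2.2.1)) o.2.2.2 k) c) c) o.1

/-- at most one bit -/
def le1 (M : ℕ) : Bool := Nat.beq (Nat.land M (Nat.sub M (nat_lit 1))) (nat_lit 0)

theorem le1_lt {M a b : ℕ} (h : le1 M = true) (ha : M.testBit a = true) (hb : M.testBit b = true) :
    ¬ a < b := fun l => by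
  have p : 0 < 2 ^ b := by positivity
  have r : M % 2 ^ b ≠ 0 := fun e => by simpa [e, ha, l] using Nat.testBit_mod_two_pow M b a
  have q : (M - 1) / 2 ^ b = M / 2 ^ b := by
    have := Nat.div_add_mod' M (2 ^ b)
    have := Nat.mod_lt M p
    rw [Nat.div_eq_iff p]; omega
  have := congrArg (·.testBit b) (show M &&& (M - 1) = 0 from Nat.eq_of_beq_eq_true h)
  simp only [Nat.testBit_and, hb, Nat.zero_testBit, Bool.true_and] at this
  rw [Nat.testBit_eq_decide_div_mod_eq, q, ← Nat.testBit_eq_decide_div_mod_eq, hb] at this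
  exact absurd this (by simp)

noncomputable def disc (G : List ℕ) : ℕ → Bool := @List.rec _ (fun _ => ℕ → Bool) le1
  (fun g _ ih M => @Bool.rec (fun _ => Bool) (andB (ih (Nat.land M g)) (ih (df M g))) true (le1 M)) G

noncomputable def run (G : List ℕ) (P : List Op) : List ℕ → Bool :=
  @List.rec _ (fun _ => List ℕ → Bool) (fun Ms => disc (G.map (nthN Ms)) ON)
    (fun o _ ih Ms => andB (okOp o Ms) (ih (nwOp o Ms :: Ms))) P

attribute [local irreducible] row nb

variable {X : Type*} [Group X] [MulAction X V] {B : Subgroup X} {M N : ℕ}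

theorem im_iff (h : Inv B (fs M)) {g : X} (hg : g ∈ B) (v : V) : mem M (g • v : V) ↔ mem M v :=
  ⟨fun a => by simpa [mem_fs] using h _ (inv_mem hg) _ (mem_fs.2 a),
    fun a => mem_fs.1 (h g hg v (mem_fs.2 a))⟩

theorem im_of (h : ∀ g ∈ B, ∀ v : V, mem M v → mem M (g • v : V)) : Inv B (fs M) :=
  fun g hg v a => mem_fs.2 (h g hg v (mem_fs.1 a))

theorem im_land (h : Inv B (fs M)) (k : Inv B (fs N)) : Inv B (fs (Nat.land M N)) :=
  im_of fun g hg v => by simp only [mem_land, im_iff h hg, im_iff k hg, imp_self]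

theorem im_df (h : Inv B (fs M)) (k : Inv B (fs N)) : Inv B (fs (df M N)) :=
  im_of fun g hg v => by simp only [mem_df, im_iff h hg, im_iff k hg, imp_self]

theorem im_ON : Inv B (fs ON) := im_of fun _ _ _ _ => mem_one (Fin.is_lt _)

theorem im_sg {x : V} (h : ∀ g ∈ B, g • x = x) : Inv B (fs (sg x)) := im_of fun g hg v a => by
  rw [mem_sg] at a ⊢
  rw [Fin.ext a, h g hg]

theorem im_nth {Ms : List ℕ} (h : ∀ M ∈ Ms, Inv B (fs M)) (i : ℕ) : Inv B (fs (nthN Ms i)) := by
  rw [nthN_eq, List.getD_eq_getElem?_getD]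
  cases e : Ms[i]? with
  | none => exact im_of fun _ _ _ a => absurd a (not_mem_zero _)
  | some M => exact h M (List.mem_of_getElem? e)

theorem disc_sound (G : List ℕ) (h : ∀ M ∈ G, Inv B (fs M)) : ∀ M, Inv B (fs M) → disc G M = true →
    ∀ g ∈ B, ∀ v : V, mem M v → g • v = v := by
  have s : ∀ M, Inv B (fs M) → le1 M = true → ∀ g ∈ B, ∀ v : V, mem M v →
      g • v = v := fun M i a g hg v hv => by
    have := le1_lt a ((im_iff i hg v).2 hv) hv
    have := le1_lt a hv ((im_iff i hg v).2 hv)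
    exact Fin.ext (by omega)
  induction G with
  | nil => exact s
  | cons m G ih =>
    intro M i a g hg v hv
    have ih := ih fun x y => h x (List.mem_cons_of_mem _ y)
    have k := h m List.mem_cons_self
    replace a : @Bool.rec (fun _ => Bool) (andB (disc G (Nat.land M m)) (disc G (df M m))) true
      (le1 M) = true := a
    cases q : le1 M
    · rw [q] at a
      by_cases e : mem m v
      · exact ih _ (im_land i k) (andB_eq_true.1 a).1 g hg v (mem_land.2 ⟨hv, e⟩)
      · exact ih _ (im_df i k) (andB_eq_true.1 a).2 g hg v (mem_df.2 ⟨hv, e⟩)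
    · exact s M i q g hg v hv

theorem card_step [Finite X] (h : Inv B (fs M)) {x : V} {c : ℕ} (hx : mb M x = true)
    (hc : cnt (mb M) 4060 = c) : Nat.card B ≤ c * Nat.card (stabilizer X x ⊓ B : Subgroup X) := by
  rw [← Subgroup.index_mul_card ((stabilizer X x).subgroupOf B),
    ← Nat.card_congr (Subgroup.subgroupOfEquivOfLe inf_le_right).toEquiv,
    Subgroup.inf_subgroupOf_right, ← hc, ← card_fs]
  refine Nat.mul_le_mul_right _ ((ncard_orbit _ _).ge.trans ((Set.ncard_le_ncard (t := fs M) ?_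
    (finite_toSet _)).trans (Set.ncard_coe_finset _).le))
  rintro _ ⟨g, rfl⟩
  exact h g g.2 x (mem_fs.2 (mb_iff.1 hx))

variable (inv : ∀ (g : X) (u v : V), adj (g • u) (g • v) ↔ adj u v)
include inv

theorem im_row {x : V} (h : ∀ g ∈ B, g • x = x) : Inv B (fs (row x)) := im_of fun g hg v => by
  rw [← adj_iff, ← adj_iff, ← inv g, h g hg]; exact id

theorem ct_inv (h : Inv B (fs M)) {g : X} (hg : g ∈ B) (v : V) :
    nb M (g • v : V) = nb M v := by
  rw [nb, nb, ct_fin _ (fun u : V => adj (g • v) u ∧ mem M u) fun u => by rw [mem_land, adj_iff],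
    ct_fin _ (fun u : V => adj v u ∧ mem M u) fun u => by rw [mem_land, adj_iff],
    card_filter_smul g (fun u _ => ⟨mem_univ _, mem_univ _⟩) _ _ fun u => by
      rw [inv, im_iff h hg]]

theorem im_flt (h : Inv B (fs M)) (k : Inv B (fs N)) {KR : List (ℕ × ℕ)}
    (c : ∀ v < 4060, fChk M N KR v = true) : ∀ e ∈ KR, Inv B (fs e.2) ∧
      ∀ v : V, mem e.2 v ↔ mem M v ∧ nb N v = e.1 := fun e he => by
  have s : ∀ v : V, mem e.2 v ↔ mem M v ∧ nb N v = e.1 := fun v => by
    have := c v v.2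
    unfold fChk at this
    rw [← mb_iff, ← mb_iff]
    cases q : mb M v <;> rw [q] at this
    · simpa using List.all_eq_true.1 this e he
    · rw [frcB_eq] at this
      rw [← beq_iff_eq.1 (List.all_eq_true.1 this e he), Nat.beq_eq, and_iff_right rfl]
  exact ⟨im_of fun g hg v => by rw [s, s, im_iff h hg, ct_inv inv k hg]; exact id, s⟩

theorem run_sound (G : List ℕ) (P : List Op) : ∀ Ms : List ℕ, (∀ M ∈ Ms, Inv B (fs M)) →
    run G P Ms = true → ∀ g ∈ B, ∀ v : V, g • v = v := by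
  induction P with
  | nil =>
    exact fun Ms h a g hg v => disc_sound _ (List.forall_mem_map.2 fun i _ => im_nth h i) _
      im_ON a g hg v (mem_one v.2)
  | cons o P ih =>
    intro Ms h a
    obtain ⟨a, b⟩ := andB_eq_true.1 (show andB (okOp o Ms) (run G P (nwOp o Ms :: Ms)) = true from a)
    refine ih _ (List.forall_mem_cons.2 ⟨?_, h⟩) b
    obtain ⟨_ | _ | _ | k, i, j, L⟩ := o
    · exact im_land (im_nth h i) (im_nth h j)
    · exact im_df (im_nth h i) (im_nth h j)
    · obtain ⟨a1, a2⟩ := andB_eq_true.1 (show andB (Nat.beq (nthN Ms i) (sg j)) (Nat.blt j 4060) =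
        true from a)
      have := im_nth h i
      rw [Nat.eq_of_beq_eq_true a1] at this
      exact im_row inv (x := ⟨j, Nat.blt_eq.mp a2⟩) fun g hg =>
        Fin.ext (mem_sg.1 ((im_iff this hg _).2 (mem_sg.2 rfl)))
    · have := im_nth h i
      rw [Nat.eq_of_beq_eq_true (show Nat.beq (nthN Ms i) (mkS L) = true from a)] at this
      refine im_of (M := fltM (nb (nthN Ms j)) L k) fun g hg v => ?_
      rw [mem_fltM, mem_fltM, ← mem_mkS, ← mem_mkS, im_iff this hg, ct_inv inv (im_nth h j) hg]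
      exact id

end Cfsg.H7.Ru
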